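import Cfsg.Agent.BlocksChar.Inverted
import Cfsg.Agent.Lib.MinimalNormal
import Mathlib.GroupTheory.GroupAction.Quotient
import Mathlib.Tactic

/-!
# Groups in which a four-group has bounded centralisers and bounded 2-part

Elementary Brauer–Fowler type bound.
-/

set_option autoImplicit false
set_option linter.style.haveILetI false
set_option linter.unusedSectionVars false

namespace Cfsg.Agent.BlocksChar

universe u

variable {X : Type u} [Group X] [Finite X]

/-- Passing to a quotient multiplies centralisers by at most the order of the kernel. -/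
theorem card_map_centralizer_le (H K : Subgroup X) [K.Normal] (hKH : K ≤ H) (v : X) :
    Nat.card ↥(H.map (QuotientGroup.mk' K) ⊓ Subgroup.centralizer ({(v : X ⧸ K)} : Set (X ⧸ K)))
      ≤ Nat.card ↥(H ⊓ Subgroup.centralizer ({v} : Set X)) * Nat.card K := by
  classical
  letI := Fintype.ofFinite X
  set S := Finset.univ.filter fun h : X => h ∈ H ∧ h * v * h⁻¹ * v⁻¹ ∈ K with hS
  have h1 : Nat.card ↥(H.map (QuotientGroup.mk' K) ⊓ Subgroup.centralizer ({(v : X ⧸ K)} : Set (X ⧸ K)))
      ≤ S.card := by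
    rw [← Nat.card_eq_finsetCard]
    have hmem : ∀ h : S, (QuotientGroup.mk' K) (h : X) ∈
        H.map (QuotientGroup.mk' K) ⊓ Subgroup.centralizer ({(v : X ⧸ K)} : Set (X ⧸ K)) := by
      rintro ⟨h, hh⟩
      obtain ⟨hH, hK⟩ := (Finset.mem_filter.mp hh).2
      refine ⟨⟨h, hH, rfl⟩, Subgroup.mem_centralizer_singleton_iff.mpr ?_⟩
      have e := (QuotientGroup.eq_one_iff (h * v * h⁻¹ * v⁻¹)).mpr hK
      simp only [QuotientGroup.mk_mul, QuotientGroup.mk_inv] at e
      rw [mul_inv_eq_one, mul_inv_eq_iff_eq_mul] at e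
      exact e
    refine Nat.card_le_card_of_surjective (fun h : S => (⟨_, hmem h⟩ :
      ↥(H.map (QuotientGroup.mk' K) ⊓ Subgroup.centralizer ({(v : X ⧸ K)} : Set (X ⧸ K))))) ?_
    rintro ⟨q, hq⟩
    obtain ⟨⟨h, hH, rfl⟩, hc⟩ := hq
    refine ⟨⟨h, Finset.mem_filter.mpr ⟨Finset.mem_univ _, hH, ?_⟩⟩, rfl⟩
    rw [← QuotientGroup.eq_one_iff]
    have e := Subgroup.mem_centralizer_singleton_iff.mp hc
    simp only [QuotientGroup.mk_mul, QuotientGroup.mk_inv]
    rw [mul_inv_eq_one, mul_inv_eq_iff_eq_mul]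
    exact e
  refine h1.trans ?_
  have h2 := Finset.card_le_mul_card_image S (f := fun h => h * v * h⁻¹ * v⁻¹)
    (Nat.card ↥(H ⊓ Subgroup.centralizer ({v} : Set X))) (fun b hb => by
      obtain ⟨h₀, hh₀, rfl⟩ := Finset.mem_image.mp hb
      have hsub : ∀ h ∈ S.filter (fun h => h * v * h⁻¹ * v⁻¹ = h₀ * v * h₀⁻¹ * v⁻¹),
          h₀⁻¹ * h ∈ H ⊓ Subgroup.centralizer ({v} : Set X) := by
        intro h hh
        obtain ⟨hS', he⟩ := Finset.mem_filter.mp hh
        refine ⟨H.mul_mem (H.inv_mem (Finset.mem_filter.mp hh₀).2.1) (Finset.mem_filter.mp hS').2.1,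
          Subgroup.mem_centralizer_singleton_iff.mpr ?_⟩
        have he' := mul_right_cancel he
        calc h₀⁻¹ * h * v = h₀⁻¹ * (h * v * h⁻¹) * h := by group
          _ = h₀⁻¹ * (h₀ * v * h₀⁻¹) * h := by rw [he']
          _ = _ := by group
      rw [← Nat.card_eq_finsetCard]
      exact Nat.card_le_card_of_injective (fun h => (⟨h₀⁻¹ * (h : X), hsub h h.2⟩ :
        ↥(H ⊓ Subgroup.centralizer ({v} : Set X)))) fun a b hab =>
          Subtype.ext (mul_left_cancel (congrArg Subtype.val hab)))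
  refine h2.trans (Nat.mul_le_mul_left _ ?_)
  rw [← Nat.card_eq_finsetCard]
  exact Nat.card_le_card_of_injective (fun b => (⟨(b : X), by
    obtain ⟨h, hh, he⟩ := Finset.mem_image.mp b.2
    exact he ▸ (Finset.mem_filter.mp hh).2.2⟩ : K)) fun a b hab =>
      Subtype.ext (congrArg Subtype.val hab : _)

/-- Involutions of one coset of an odd normal subgroup commuting with a given one. -/
theorem card_odd_le {O : Subgroup X} [hOn : O.Normal] (hO : Odd (Nat.card O)) {x y : X}
    (hxx : x * x = 1) (hyy : y * y = 1) (hxy : Commute x y) {m : ℕ}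
    (hx : Nat.card ↥(O ⊓ Subgroup.centralizer ({x} : Set X)) ≤ m)
    (hy : Nat.card ↥(O ⊓ Subgroup.centralizer ({y} : Set X)) ≤ m)
    (hz : Nat.card ↥(O ⊓ Subgroup.centralizer ({x * y} : Set X)) ≤ m) :
    Nat.card O ≤ m * m * m := by
  classical
  letI := Fintype.ofFinite X
  have hm : 1 ≤ m := le_trans Nat.card_pos hx
  have hmm : m ≤ m * m * m := by nlinarith
  have htriv : ∀ v : X, v * v = 1 → v ∈ O → v = 1 := fun v hv hvO => by
    have h1 : orderOf v ∣ 2 := orderOf_dvd_iff_pow_eq_one.mpr (by rw [pow_two, hv])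
    have h2 : orderOf v ∣ Nat.card O := Subgroup.orderOf_dvd_natCard O hvO
    exact orderOf_eq_one_iff.mp
      (Nat.eq_one_of_dvd_coprimes (Nat.coprime_two_left.mpr hO) h1 h2)
  by_cases hone : x = 1 ∨ y = 1 ∨ x * y = 1
  · have hall : ∀ v : X, v = 1 → Nat.card ↥(O ⊓ Subgroup.centralizer ({v} : Set X)) ≤ m →
        Nat.card O ≤ m := fun v hv h => by
      refine le_trans (le_of_eq ?_) h
      rw [hv]
      congr 1
      have : O ⊓ Subgroup.centralizer ({1} : Set X) = O :=
        inf_eq_left.mpr fun o _ => Subgroup.mem_centralizer_singleton_iff.mpr (by simp)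
      rw [this]
    rcases hone with h | h | h
    · exact (hall x h hx).trans hmm
    · exact (hall y h hy).trans hmm
    · exact (hall _ h hz).trans hmm
  push Not at hone
  obtain ⟨hx1, hy1, hxy1⟩ := hone
  have hxyz : (x * y) * (x * y) = 1 := by
    calc (x * y) * (x * y) = x * (y * x) * y := by group
      _ = x * (x * y) * y := by rw [hxy.eq]
      _ = (x * x) * (y * y) := by group
      _ = 1 := by rw [hxx, hyy, one_mul]
  -- the conjugates of `x` under `O`
  set T := (Finset.univ : Finset O).image fun o : O => (o : X) * x * (o : X)⁻¹ with hT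
  set Cz := Finset.univ.filter fun c : X => c ∈ O ⊓ Subgroup.centralizer ({y} : Set X) ∧
    (c * (x * y)) * (c * (x * y)) = 1 with hCz
  have hCzcard : Cz.card ≤ m := by
    refine le_trans ?_ hy
    rw [← Nat.card_eq_finsetCard]
    exact Nat.card_le_card_of_injective (fun c : Cz => (⟨(c : X), (Finset.mem_filter.mp c.2).2.1⟩ :
      ↥(O ⊓ Subgroup.centralizer ({y} : Set X)))) fun a b hab =>
        Subtype.ext (congrArg Subtype.val hab : _)
  have hcover : T ⊆ Cz.biUnion (fun c => T.filter fun t => Commute t (c * (x * y))) := by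
    intro t ht
    obtain ⟨⟨o, ho⟩, -, rfl⟩ := Finset.mem_image.mp ht
    simp only
    set t := o * x * o⁻¹ with ht'
    clear_value t
    set w := t * y with hw
    clear_value w
    have htt : t * t = 1 := by
      rw [ht', show o * x * o⁻¹ * (o * x * o⁻¹) = o * (x * x) * o⁻¹ by group, hxx]; group
    have htO : t * x⁻¹ ∈ O := by
      rw [ht', show o * x * o⁻¹ * x⁻¹ = o * (x * o⁻¹ * x⁻¹) by group]
      exact O.mul_mem ho (hOn.conj_mem _ (O.inv_mem ho) x)
    have hwq : (w : X ⧸ O) = ((x * y : X) : X ⧸ O) := by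
      have : (t : X ⧸ O) = (x : X ⧸ O) := by
        rw [← div_eq_one, ← QuotientGroup.mk_div, QuotientGroup.eq_one_iff, div_eq_mul_inv]
        exact htO
      rw [hw, QuotientGroup.mk_mul, QuotientGroup.mk_mul, this]
    have hxyO : x * y ∉ O := fun h => hxy1 (htriv _ hxyz h)
    have hxyq : ((x * y : X) : X ⧸ O) * ((x * y : X) : X ⧸ O) = 1 := by
      rw [← QuotientGroup.mk_mul, hxyz, QuotientGroup.mk_one]
    -- the order of `w` is twice an odd number
    have hodd : ∃ k : ℕ, orderOf w = 2 * k ∧ Odd k := by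
      have h2 : 2 ∣ orderOf w := by
        by_contra h
        have hq := orderOf_map_dvd (QuotientGroup.mk' O) w
        rw [QuotientGroup.mk'_apply, hwq] at hq
        have h1 : orderOf ((x * y : X) : X ⧸ O) ∣ 2 :=
          orderOf_dvd_iff_pow_eq_one.mpr (by rw [pow_two, hxyq])
        have := Nat.eq_one_of_dvd_coprimes ((Nat.Prime.coprime_iff_not_dvd Nat.prime_two).mpr h) h1 hq
        exact hxyO ((QuotientGroup.eq_one_iff _).mp (orderOf_eq_one_iff.mp this))
      obtain ⟨k, hk⟩ := h2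
      refine ⟨k, hk, ?_⟩
      have hw2 : w ^ 2 ∈ O := by
        rw [← QuotientGroup.eq_one_iff, QuotientGroup.mk_pow, hwq, pow_two, hxyq]
      have ho2 : orderOf (w ^ 2) = k := by
        rw [orderOf_pow_of_dvd two_ne_zero (by rw [hk]; exact dvd_mul_right 2 k), hk,
          Nat.mul_div_cancel_left _ two_pos]
      have := Subgroup.orderOf_dvd_natCard O hw2
      rw [ho2] at this
      exact hO.of_dvd_nat this
    obtain ⟨k, hk, j, hj⟩ := hodd
    set z := w ^ k with hz'
    clear_value z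
    have hzz : z * z = 1 := by
      rw [hz', ← pow_add, ← two_mul, ← hk, pow_orderOf_eq_one]
    have hzq : (z : X ⧸ O) = ((x * y : X) : X ⧸ O) := by
      rw [hz', QuotientGroup.mk_pow, hwq, hj, pow_add, pow_mul, pow_two, hxyq, one_pow, one_mul,
        pow_one]
    have htw : t * w * t⁻¹ = w⁻¹ := by
      rw [hw, mul_inv_rev, inv_eq_of_mul_eq_one_right htt, inv_eq_of_mul_eq_one_right hyy,
        ← mul_assoc, htt, one_mul]
    have hyw : y * w * y⁻¹ = w⁻¹ := by
      rw [hw, mul_inv_rev, inv_eq_of_mul_eq_one_right htt, inv_eq_of_mul_eq_one_right hyy,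
        mul_assoc, mul_assoc, hyy, mul_one]
    have hcomm : ∀ u : X, u * w * u⁻¹ = w⁻¹ → Commute u z := by
      intro u hu
      have h1 : u * z * u⁻¹ = z := by
        rw [hz', ← conj_pow, hu, inv_pow]
        exact inv_eq_of_mul_eq_one_right (hz' ▸ hzz)
      rw [mul_inv_eq_iff_eq_mul] at h1
      exact h1
    have hxyc : Commute y (x * y) := by
      show y * (x * y) = x * y * y
      rw [← mul_assoc, ← hxy.eq]
    refine Finset.mem_biUnion.mpr ⟨z * (x * y)⁻¹, Finset.mem_filter.mpr ⟨Finset.mem_univ _,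
      ⟨⟨?_, ?_⟩, ?_⟩⟩, Finset.mem_filter.mpr ⟨ht, ?_⟩⟩
    · show z * (x * y)⁻¹ ∈ O
      rw [← div_eq_mul_inv, ← QuotientGroup.eq_one_iff, QuotientGroup.mk_div, div_eq_one]
      exact hzq
    · exact Subgroup.mem_centralizer_singleton_iff.mpr
        (((hcomm y hyw).symm).mul_left hxyc.symm.inv_left).eq
    · rw [inv_mul_cancel_right]; exact hzz
    · rw [inv_mul_cancel_right]; exact hcomm t htw
  have hfib : ∀ c ∈ Cz, (T.filter fun t => Commute t (c * (x * y))).card ≤ m := by
    intro c hc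
    obtain ⟨hcO, hcz⟩ := (Finset.mem_filter.mp hc).2
    obtain ⟨d, hd, he⟩ := exists_conj_of_coset hO hxyz hcO.1 hcz
    have hle : Nat.card ↥(O ⊓ Subgroup.centralizer ({c * (x * y)} : Set X)) ≤ m := by
      refine le_trans (Nat.card_le_card_of_injective (fun o : ↥(O ⊓ Subgroup.centralizer
        ({c * (x * y)} : Set X)) => (⟨d⁻¹ * (o : X) * d, ⟨O.mul_mem (O.mul_mem (O.inv_mem hd) o.2.1) hd, ?_⟩⟩ :
          ↥(O ⊓ Subgroup.centralizer ({x * y} : Set X)))) ?_) hz
      · have h1' := Subgroup.mem_centralizer_singleton_iff.mp o.2.2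
        have h1 : (o : X) * (d * (x * y) * d⁻¹) = d * (x * y) * d⁻¹ * (o : X) := by
          rw [← he]; exact h1'
        refine Subgroup.mem_centralizer_singleton_iff.mpr ?_
        calc d⁻¹ * (o : X) * d * (x * y) = d⁻¹ * ((o : X) * (d * (x * y) * d⁻¹)) * d := by group
          _ = d⁻¹ * ((d * (x * y) * d⁻¹) * (o : X)) * d := by rw [h1]
          _ = _ := by group
      · intro a b hab
        exact Subtype.ext (mul_left_cancel (mul_right_cancel (congrArg Subtype.val hab : _)))
    rcases (T.filter fun t => Commute t (c * (x * y))).eq_empty_or_nonempty with h0 | ⟨t₀, ht₀⟩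
    · rw [h0]; simp
    refine le_trans ?_ hle
    rw [← Nat.card_eq_finsetCard]
    have hsub : ∀ t ∈ T.filter (fun t => Commute t (c * (x * y))),
        t * t₀⁻¹ ∈ O ⊓ Subgroup.centralizer ({c * (x * y)} : Set X) := by
      intro t ht
      obtain ⟨htT, htc⟩ := Finset.mem_filter.mp ht
      obtain ⟨ht₀T, ht₀c⟩ := Finset.mem_filter.mp ht₀
      refine ⟨?_, Subgroup.mem_centralizer_singleton_iff.mpr (htc.mul_left ht₀c.inv_left).eq⟩
      obtain ⟨⟨o, ho⟩, -, rfl⟩ := Finset.mem_image.mp htT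
      obtain ⟨⟨o₀, ho₀⟩, -, rfl⟩ := Finset.mem_image.mp ht₀T
      show o * x * o⁻¹ * (o₀ * x * o₀⁻¹)⁻¹ ∈ O
      rw [show o * x * o⁻¹ * (o₀ * x * o₀⁻¹)⁻¹ = o * (x * (o⁻¹ * o₀) * x⁻¹) * o₀⁻¹ by group]
      exact O.mul_mem (O.mul_mem ho (hOn.conj_mem _ (O.mul_mem (O.inv_mem ho) ho₀) x)) (O.inv_mem ho₀)
    exact Nat.card_le_card_of_injective (fun t => (⟨_, hsub (t : X) t.2⟩ :
      ↥(O ⊓ Subgroup.centralizer ({c * (x * y)} : Set X)))) fun a b hab =>
        Subtype.ext (mul_right_cancel (congrArg Subtype.val hab : _))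
  have hTcard : T.card ≤ m * m := by
    refine (Finset.card_le_card hcover).trans (Finset.card_biUnion_le.trans ?_)
    refine (Finset.sum_le_sum hfib).trans ?_
    rw [Finset.sum_const, smul_eq_mul]
    exact Nat.mul_le_mul_right _ hCzcard
  -- `|O| ≤ |T| * |C_O(x)|`
  have hO' : Nat.card O ≤ m * T.card := by
    rw [Nat.card_eq_fintype_card]
    refine Finset.card_le_mul_card_image (Finset.univ : Finset O) m fun b hb => ?_
    obtain ⟨o₀, -, rfl⟩ := Finset.mem_image.mp hb
    refine le_trans ?_ hx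
    rw [← Nat.card_eq_finsetCard]
    refine Nat.card_le_card_of_injective (fun o => (⟨(o₀ : X)⁻¹ * ((o.1 : O) : X),
      ⟨O.mul_mem (O.inv_mem o₀.2) o.1.2, ?_⟩⟩ : ↥(O ⊓ Subgroup.centralizer ({x} : Set X)))) ?_
    · have he := (Finset.mem_filter.mp o.2).2
      refine Subgroup.mem_centralizer_singleton_iff.mpr ?_
      calc (o₀ : X)⁻¹ * ((o.1 : O) : X) * x
          = (o₀ : X)⁻¹ * (((o.1 : O) : X) * x * ((o.1 : O) : X)⁻¹) * ((o.1 : O) : X) := by group
        _ = (o₀ : X)⁻¹ * ((o₀ : X) * x * (o₀ : X)⁻¹) * ((o.1 : O) : X) := by rw [he]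
        _ = _ := by group
    · intro a b hab
      exact Subtype.ext (Subtype.ext (mul_left_cancel (congrArg Subtype.val hab : _)))
  calc Nat.card O ≤ m * T.card := hO'
    _ ≤ m * (m * m) := Nat.mul_le_mul_left _ hTcard
    _ = m * m * m := by ring

/-- A simple normal section with an automorphism of order two with small centraliser. -/
theorem card_simple_le {T : Subgroup X} {x : X} (hxx : x * x = 1)
    (hxT : ∀ t ∈ T, x * t * x⁻¹ ∈ T)
    (hsimple : ∀ K : Subgroup X, K ≤ T → (∀ t ∈ T, ∀ k ∈ K, t * k * t⁻¹ ∈ K) → K = ⊥ ∨ K = T)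
    (hna : ∃ a ∈ T, ∃ b ∈ T, a * b ≠ b * a)
    {m : ℕ} (hm : Nat.card ↥(T ⊓ Subgroup.centralizer ({x} : Set X)) ≤ m) :
    Nat.card T ≤ max m (2 * m * m).factorial := by
  classical
  letI := Fintype.ofFinite X
  set C := T ⊓ Subgroup.centralizer ({x} : Set X) with hC
  by_cases hcen : T ≤ Subgroup.centralizer ({x} : Set X)
  · refine le_trans ?_ (le_max_left _ _)
    exact (Nat.card_mono (Set.toFinite _) fun t ht => (⟨ht, hcen ht⟩ : t ∈ C)).trans hm
  set TS := Finset.univ.filter (· ∈ T) with hTS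
  have hTcard : TS.card = Nat.card T := by
    rw [Nat.card_eq_fintype_card, Fintype.card_subtype]
  set I := TS.image fun t => t * (x * t⁻¹ * x⁻¹) with hI
  have hIT : ∀ a ∈ I, a ∈ T := by
    intro a ha
    obtain ⟨t, ht, rfl⟩ := Finset.mem_image.mp ha
    exact T.mul_mem (Finset.mem_filter.mp ht).2 (hxT _ (T.inv_mem (Finset.mem_filter.mp ht).2))
  have hIx : ∀ a ∈ I, (a * x) * (a * x) = 1 := by
    intro a ha
    obtain ⟨t, -, rfl⟩ := Finset.mem_image.mp ha
    rw [show t * (x * t⁻¹ * x⁻¹) * x * (t * (x * t⁻¹ * x⁻¹) * x) = t * (x * x) * t⁻¹ by group, hxx]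
    group
  have hfib : Nat.card T ≤ m * I.card := by
    rw [← hTcard]
    refine Finset.card_le_mul_card_image TS m fun b hb => ?_
    obtain ⟨t₀, ht₀, rfl⟩ := Finset.mem_image.mp hb
    refine le_trans ?_ hm
    rw [← Nat.card_eq_finsetCard]
    refine Nat.card_le_card_of_injective (fun t => (⟨t₀⁻¹ * (t : X), ⟨T.mul_mem
      (T.inv_mem (Finset.mem_filter.mp ht₀).2)
      (Finset.mem_filter.mp (Finset.mem_filter.mp t.2).1).2, ?_⟩⟩ : C)) ?_
    · have he := (Finset.mem_filter.mp t.2).2
      refine Subgroup.mem_centralizer_singleton_iff.mpr ?_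
      calc t₀⁻¹ * (t : X) * x = t₀⁻¹ * ((t : X) * (x * (t : X)⁻¹ * x⁻¹)) * x * t := by group
        _ = t₀⁻¹ * (t₀ * (x * t₀⁻¹ * x⁻¹)) * x * t := by rw [he]
        _ = _ := by group
    · intro a b hab
      exact Subtype.ext (mul_left_cancel (congrArg Subtype.val hab : _))
  have hI2 : 2 ≤ I.card := by
    obtain ⟨t, ht, htc⟩ := SetLike.not_le_iff_exists.mp hcen
    refine Finset.one_lt_card.mpr ⟨1, Finset.mem_image.mpr ⟨1, by simp [hTS, T.one_mem], by simp⟩,
      _, Finset.mem_image.mpr ⟨t, by simp [hTS, ht], rfl⟩, fun h => htc ?_⟩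
    refine Subgroup.mem_centralizer_singleton_iff.mpr ?_
    calc t * x = t * (x * t⁻¹ * x⁻¹) * x * t := by group
      _ = 1 * x * t := by rw [← h]
      _ = x * t := by rw [one_mul]
  obtain ⟨g, hgT, hg1, hidx⟩ : ∃ g ∈ T, g ≠ 1 ∧
      Nat.card T ≤ 2 * m * m * Nat.card ↥(T ⊓ Subgroup.centralizer ({g} : Set X)) := by
    by_contra hc
    push Not at hc
    -- count pairs of distinct elements of `I`
    set pairs := (I ×ˢ I).filter fun q => q.1 ≠ q.2 with hpairs
    have hp : pairs.card = I.card * I.card - I.card := by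
      rw [← Finset.offDiag_card]; congr 1; ext q; simp [hpairs, and_assoc]
    have hbd : pairs.card ≤ ∑ g ∈ TS.erase 1, Nat.card ↥(T ⊓ Subgroup.centralizer ({g} : Set X)) := by
      have hmap : ∀ q ∈ pairs, q.1 * q.2⁻¹ ∈ TS.erase 1 := by
        intro q hq
        obtain ⟨hq', hne⟩ := Finset.mem_filter.mp hq
        obtain ⟨h1, h2⟩ := Finset.mem_product.mp hq'
        refine Finset.mem_erase.mpr ⟨fun h => hne (mul_inv_eq_one.mp h), ?_⟩
        simp [hTS, T.mul_mem (hIT _ h1) (T.inv_mem (hIT _ h2))]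
      rw [Finset.card_eq_sum_card_fiberwise hmap]
      refine Finset.sum_le_sum fun g hg => ?_
      rcases (pairs.filter fun q => q.1 * q.2⁻¹ = g).eq_empty_or_nonempty with h0 | ⟨q₀, hq₀⟩
      · rw [h0]; simp
      rw [← Nat.card_eq_finsetCard]
      have hinv : ∀ q ∈ pairs.filter (fun q => q.1 * q.2⁻¹ = g), q.1 ∈ T ∧
          (q.1 * x) * g * (q.1 * x)⁻¹ = g⁻¹ := by
        intro q hq
        obtain ⟨hq', he⟩ := Finset.mem_filter.mp hq
        obtain ⟨h1, h2⟩ := Finset.mem_product.mp (Finset.mem_filter.mp hq').1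
        refine ⟨hIT _ h1, ?_⟩
        have e1 : g = (q.1 * x) * (q.2 * x)⁻¹ := by rw [← he]; group
        rw [e1, mul_inv_rev (q.1 * x) (q.2 * x)⁻¹, inv_inv,
          inv_eq_of_mul_eq_one_right (hIx _ h2), inv_eq_of_mul_eq_one_right (hIx _ h1)]
        calc q.1 * x * (q.1 * x * (q.2 * x)) * (q.1 * x)
            = (q.1 * x * (q.1 * x)) * ((q.2 * x) * (q.1 * x)) := by group
          _ = _ := by rw [hIx _ h1, one_mul]
      refine Nat.card_le_card_of_injective (fun q => (⟨(q : X × X).1 * q₀.1⁻¹,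
        ⟨T.mul_mem (hinv _ q.2).1 (T.inv_mem (hinv _ hq₀).1), ?_⟩⟩ :
          ↥(T ⊓ Subgroup.centralizer ({g} : Set X)))) ?_
      · refine Subgroup.mem_centralizer_singleton_iff.mpr ?_
        have e1 := (hinv _ q.2).2
        have e2 := (hinv _ hq₀).2
        have e3 : (q₀.1 * x)⁻¹ * g * (q₀.1 * x) = g⁻¹ := by
          calc (q₀.1 * x)⁻¹ * g * (q₀.1 * x)
              = ((q₀.1 * x)⁻¹ * g⁻¹ * (q₀.1 * x))⁻¹ := by group
            _ = ((q₀.1 * x)⁻¹ * (q₀.1 * x * g * (q₀.1 * x)⁻¹) * (q₀.1 * x))⁻¹ := by rw [e2]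
            _ = g⁻¹ := by group
        have e4 : (q : X × X).1 * x * g⁻¹ * ((q : X × X).1 * x)⁻¹ = g := by
          calc (q : X × X).1 * x * g⁻¹ * ((q : X × X).1 * x)⁻¹
              = ((q : X × X).1 * x * g * ((q : X × X).1 * x)⁻¹)⁻¹ := by group
            _ = g := by rw [e1, inv_inv]
        have e5 : ((q : X × X).1 * q₀.1⁻¹) * g * ((q : X × X).1 * q₀.1⁻¹)⁻¹ = g := by
          calc ((q : X × X).1 * q₀.1⁻¹) * g * ((q : X × X).1 * q₀.1⁻¹)⁻¹
              = (q : X × X).1 * x * ((q₀.1 * x)⁻¹ * g * (q₀.1 * x)) * ((q : X × X).1 * x)⁻¹ := by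
                group
            _ = g := by rw [e3, e4]
        rw [mul_inv_eq_iff_eq_mul] at e5
        exact e5
      · intro a b hab
        have h1 : (a : X × X).1 = (b : X × X).1 := mul_right_cancel (congrArg Subtype.val hab : _)
        refine Subtype.ext (Prod.ext h1 ?_)
        have ea := (Finset.mem_filter.mp a.2).2
        have eb := (Finset.mem_filter.mp b.2).2
        have hh := ea.trans eb.symm
        rw [h1] at hh
        exact inv_injective (mul_left_cancel hh)
    have hlt : 2 * m * m * pairs.card < Nat.card T * Nat.card T := by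
      refine lt_of_le_of_lt (Nat.mul_le_mul_left _ hbd) ?_
      rw [Finset.mul_sum]
      refine lt_of_le_of_lt (Finset.sum_le_sum (g := fun _ => Nat.card T) fun g hg => ?_) ?_
      · obtain ⟨hg1, hgT⟩ := Finset.mem_erase.mp hg
        exact (hc g (Finset.mem_filter.mp hgT).2 hg1).le
      · rw [Finset.sum_const, smul_eq_mul, Finset.card_erase_of_mem (by simp [hTS, T.one_mem]), hTcard]
        have : 0 < Nat.card T := Nat.card_pos
        exact Nat.mul_lt_mul_of_pos_right (by omega) this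
    rw [hp] at hlt
    have h4 : I.card * I.card ≤ 2 * (I.card * I.card - I.card) := by
      have : 2 * I.card ≤ I.card * I.card := Nat.mul_le_mul_right _ hI2
      omega
    have h5 : Nat.card T * Nat.card T ≤ m * m * (I.card * I.card) := by
      calc Nat.card T * Nat.card T ≤ (m * I.card) * (m * I.card) := Nat.mul_le_mul hfib hfib
        _ = _ := by ring
    have h6 : m * m * (I.card * I.card) ≤ m * m * (2 * (I.card * I.card - I.card)) :=
      Nat.mul_le_mul_left _ h4
    have h7 : m * m * (2 * (I.card * I.card - I.card)) = 2 * m * m * (I.card * I.card - I.card) := by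
      ring
    omega
  refine le_trans ?_ (le_max_right _ _)
  set D := (Subgroup.centralizer ({g} : Set X)).subgroupOf T with hD
  have hDc : Nat.card D = Nat.card ↥(T ⊓ Subgroup.centralizer ({g} : Set X)) := by
    rw [hD, ← Subgroup.card_map_of_injective T.subtype_injective, Subgroup.subgroupOf_map_subtype,
      inf_comm]
  have hDi : D.index ≤ 2 * m * m := by
    have h1 := D.card_mul_index
    rw [hDc] at h1
    rw [← h1, mul_comm (2 * m * m)] at hidx
    exact Nat.le_of_mul_le_mul_left hidx Nat.card_pos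
  have hcore : D.normalCore = ⊥ := by
    rcases hsimple (D.normalCore.map T.subtype) (Subgroup.map_subtype_le _) (fun t ht k hk => by
      obtain ⟨k', hk', rfl⟩ := hk
      exact ⟨⟨t, ht⟩ * k' * ⟨t, ht⟩⁻¹, Subgroup.normalCore_normal D |>.conj_mem _ hk' _, rfl⟩)
      with h | h
    · exact (Subgroup.map_eq_bot_iff_of_injective _ T.subtype_injective).mp h
    · exfalso
      -- then `g` is central in `T`
      have hall : ∀ t ∈ T, t * g = g * t := by
        intro t ht
        obtain ⟨k', hk', rfl⟩ := h.symm ▸ ht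
        exact Subgroup.mem_centralizer_singleton_iff.mp (D.normalCore_le hk' : _)
      rcases hsimple (T ⊓ Subgroup.centralizer (T : Set X)) inf_le_left (fun t ht k hk => by
        refine ⟨T.mul_mem (T.mul_mem ht hk.1) (T.inv_mem ht), ?_⟩
        have : t * k * t⁻¹ = k := by rw [hk.2 t ht, mul_inv_cancel_right]
        rw [this]; exact hk.2) with h' | h'
      · have : g ∈ T ⊓ Subgroup.centralizer (T : Set X) := ⟨hgT, fun t ht => hall t ht⟩
        rw [h', Subgroup.mem_bot] at this
        exact hg1 this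
      · obtain ⟨a, ha, b, hb, hab⟩ := hna
        exact hab ((h'.ge hb).2 a ha)
  letI := Fintype.ofFinite (↥T ⧸ D)
  have hinj : Function.Injective (MulAction.toPermHom (↥T) (↥T ⧸ D)) := by
    rw [← MonoidHom.ker_eq_bot_iff, ← Subgroup.normalCore_eq_ker, hcore]
  refine (Nat.card_le_card_of_injective _ hinj).trans ?_
  rw [Nat.card_eq_fintype_card, Fintype.card_perm, ← Nat.card_eq_fintype_card, ← Subgroup.index]
  exact Nat.factorial_le hDi

/-- The bound on a minimal normal subgroup of even order inside `H`. -/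
theorem card_minimal_normal_le {N : Subgroup X} [hNn : N.Normal]
    (hmin : ∀ L : Subgroup X, L.Normal → L ≤ N → L = ⊥ ∨ L = N) (hodd : ¬ Odd (Nat.card N))
    {x : X} (hxx : x * x = 1) {a m : ℕ} (ha : (Nat.card N).factorization 2 ≤ a)
    (hm : Nat.card ↥(N ⊓ Subgroup.centralizer ({x} : Set X)) ≤ m) :
    Nat.card N ≤ max (2 ^ a) ((max m (2 * m * m).factorial) ^ a) := by
  classical
  letI := Fintype.ofFinite X
  by_cases hab : ∀ u ∈ N, ∀ v ∈ N, u * v = v * u
  · refine le_trans ?_ (le_max_left _ _)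
    -- the elements of order dividing two form a normal subgroup
    let L : Subgroup X :=
      { carrier := {u | u ∈ N ∧ u * u = 1}
        one_mem' := ⟨N.one_mem, one_mul 1⟩
        mul_mem' := fun {u v} hu hv => ⟨N.mul_mem hu.1 hv.1, by
          calc u * v * (u * v) = u * (v * u) * v := by group
            _ = u * (u * v) * v := by rw [hab u hu.1 v hv.1]
            _ = (u * u) * (v * v) := by group
            _ = 1 := by rw [hu.2, hv.2, one_mul]⟩
        inv_mem' := fun {u} hu => ⟨N.inv_mem hu.1, by rw [← mul_inv_rev, hu.2, inv_one]⟩ }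
    have hLn : L.Normal := ⟨fun u hu g => ⟨hNn.conj_mem u hu.1 g, by
      rw [show g * u * g⁻¹ * (g * u * g⁻¹) = g * (u * u) * g⁻¹ by group, hu.2]; group⟩⟩
    rcases hmin L hLn fun u hu => hu.1 with h | h
    · exfalso
      rw [Nat.not_odd_iff_even, even_iff_two_dvd] at hodd
      haveI : Fact (Nat.Prime 2) := ⟨Nat.prime_two⟩
      obtain ⟨⟨u, hu⟩, huo⟩ := exists_prime_orderOf_dvd_card' 2 hodd
      rw [Subgroup.orderOf_mk] at huo
      have : u ∈ L := ⟨hu, by rw [← pow_two, ← huo, pow_orderOf_eq_one]⟩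
      rw [h, Subgroup.mem_bot] at this
      rw [this, orderOf_one] at huo
      exact absurd huo (by norm_num)
    · have hp : IsPGroup 2 N := fun u => ⟨1, by
        have : (u : X) ∈ L := h.symm ▸ u.2
        exact Subtype.ext (by rw [pow_one, Subgroup.coe_pow, pow_two, this.2]; rfl)⟩
      haveI : Fact (Nat.Prime 2) := ⟨Nat.prime_two⟩
      obtain ⟨n, hn⟩ := IsPGroup.iff_card.mp hp
      rw [hn, Nat.Prime.factorization_pow Nat.prime_two, Finsupp.single_eq_same] at ha
      rw [hn]
      exact Nat.pow_le_pow_right two_pos ha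
  push Not at hab
  refine le_trans ?_ (le_max_right _ _)
  have hNne : N ≠ ⊥ := by
    intro h
    rw [h, Subgroup.card_bot] at hodd
    exact hodd odd_one
  -- a minimal subgroup normalised by `N`
  let NI : Set (Subgroup X) := {T | T ≤ N ∧ T ≠ ⊥ ∧ ∀ n ∈ N, ∀ t ∈ T, n * t * n⁻¹ ∈ T}
  obtain ⟨T, hT⟩ := (Set.toFinite NI).exists_minimal ⟨N, le_rfl, hNne, fun n hn t ht =>
    N.mul_mem (N.mul_mem hn ht) (N.inv_mem hn)⟩
  obtain ⟨hTN, hTne, hTn⟩ := hT.1
  set conjT : X → Subgroup X := fun g => T.map (MulAut.conj g).toMonoidHom with hconj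
  have hmem : ∀ g u, u ∈ conjT g ↔ g⁻¹ * u * g ∈ T := by
    intro g u
    constructor
    · rintro ⟨t, ht, rfl⟩
      show g⁻¹ * (g * t * g⁻¹) * g ∈ T
      rwa [show g⁻¹ * (g * t * g⁻¹) * g = t by group]
    · intro h
      exact ⟨_, h, show g * (g⁻¹ * u * g) * g⁻¹ = u by group⟩
  have hNc : ∀ g, conjT g ≤ N := fun g u hu => by
    have h1 := hTN ((hmem g u).mp hu)
    have := hNn.conj_mem _ h1 g
    rwa [show g * (g⁻¹ * u * g) * g⁻¹ = u by group] at this
  have hcn : ∀ g, ∀ n ∈ N, ∀ u ∈ conjT g, n * u * n⁻¹ ∈ conjT g := by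
    intro g n hn u hu
    rw [hmem] at hu ⊢
    have hn' : g⁻¹ * n * g ∈ N := by simpa using hNn.conj_mem n hn g⁻¹
    have := hTn _ hn' _ hu
    rwa [show g⁻¹ * n * g * (g⁻¹ * u * g) * (g⁻¹ * n * g)⁻¹ = g⁻¹ * (n * u * n⁻¹) * g by group]
      at this
  have hcard : ∀ g, Nat.card (conjT g) = Nat.card T := fun g =>
    Subgroup.card_map_of_injective (MulAut.conj g).injective
  -- each conjugate is again minimal
  have hdisj : ∀ g, ∀ K : Subgroup X, (∀ n ∈ N, ∀ t ∈ K, n * t * n⁻¹ ∈ K) →
      conjT g ≤ K ∨ conjT g ⊓ K = ⊥ := by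
    intro g K hK
    by_contra hc
    push Not at hc
    obtain ⟨h1, h2⟩ := hc
    set L := (conjT g ⊓ K).map (MulAut.conj g⁻¹).toMonoidHom with hL
    have hLT : L ≤ T := by
      rintro _ ⟨u, hu, rfl⟩
      show g⁻¹ * u * g⁻¹⁻¹ ∈ T
      rw [inv_inv]
      exact (hmem g u).mp hu.1
    have hLI : L ∈ NI := by
      refine ⟨hLT.trans hTN, fun h => h2 ?_, ?_⟩
      · exact (Subgroup.map_eq_bot_iff_of_injective _ (MulAut.conj g⁻¹).injective).mp h
      · rintro n hn _ ⟨u, hu, rfl⟩
        have hn' : g * n * g⁻¹ ∈ N := hNn.conj_mem n hn g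
        refine ⟨g * n * g⁻¹ * u * (g * n * g⁻¹)⁻¹, ⟨hcn g _ hn' u hu.1, hK _ hn' u hu.2⟩, ?_⟩
        simp only [MulEquiv.coe_toMonoidHom, MulAut.conj_apply]
        group
    refine h1 fun u hu => ?_
    obtain ⟨w, hw, he⟩ := hT.2 hLI hLT ((hmem g u).mp hu)
    have : w = u := by
      simp only [MulEquiv.coe_toMonoidHom, MulAut.conj_apply, inv_inv] at he
      exact mul_left_cancel (mul_right_cancel he)
    exact this ▸ hw.2
  have hcomm : ∀ g h, conjT g ≠ conjT h → ∀ u ∈ conjT g, ∀ v ∈ conjT h, u * v = v * u := by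
    intro g h hne u hu v hv
    have hbot : conjT g ⊓ conjT h = ⊥ := by
      rcases hdisj g (conjT h) (hcn h) with h1 | h1
      · exact absurd (Subgroup.eq_of_le_of_card_ge h1 (by rw [hcard, hcard])) hne
      · exact h1
    have h2 : u * v * u⁻¹ * v⁻¹ ∈ conjT g ⊓ conjT h := by
      refine ⟨?_, (conjT h).mul_mem (hcn h u (hNc g hu) v hv) ((conjT h).inv_mem hv)⟩
      rw [show u * v * u⁻¹ * v⁻¹ = u * (v * u⁻¹ * v⁻¹) by group]
      exact (conjT g).mul_mem hu (hcn g v (hNc h hv) _ ((conjT g).inv_mem hu))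
    rw [hbot, Subgroup.mem_bot, mul_inv_eq_one, mul_inv_eq_iff_eq_mul] at h2
    exact h2
  -- the conjugates generate `N`
  have hgen : Finset.univ.sup conjT = N := by
    refine (hmin _ ⟨fun u hu b => ?_⟩ (Finset.sup_le fun g _ => hNc g)).resolve_left fun h => hTne ?_
    · have h1 : (Finset.univ.sup conjT).map (MulAut.conj b).toMonoidHom ≤ Finset.univ.sup conjT := by
        rw [Subgroup.map_le_iff_le_comap]
        refine Finset.sup_le fun g _ => fun v hv => ?_
        rw [Subgroup.mem_comap]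
        refine (Finset.le_sup (f := conjT) (Finset.mem_univ (b * g))) ?_
        rw [hmem]
        simp only [MulEquiv.coe_toMonoidHom, MulAut.conj_apply]
        rw [show (b * g)⁻¹ * (b * v * b⁻¹) * (b * g) = g⁻¹ * v * g by group]
        exact (hmem g v).mp hv
      exact h1 ⟨u, hu, rfl⟩
    · rw [Subgroup.eq_bot_iff_forall]
      intro t ht
      have : t ∈ conjT 1 := (hmem 1 t).mpr (by simpa using ht)
      have h2 := (Finset.le_sup (f := conjT) (Finset.mem_univ (1 : X))) this
      rwa [h, Subgroup.mem_bot] at h2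
  obtain ⟨s, -, hs, hsmin⟩ : ∃ s : Finset X, s ⊆ Finset.univ ∧ s.sup conjT = N ∧
      ∀ t ⊂ s, t.sup conjT ≠ N := by
    obtain ⟨s, hs1, hs2⟩ := (Set.toFinite {s : Finset X | s.sup conjT = N}).exists_minimal
      ⟨Finset.univ, hgen⟩
    exact ⟨s, Finset.subset_univ _, hs1, fun t ht he => ht.2 (hs2 he ht.1)⟩
  have hsupn : ∀ t : Finset X, ∀ n ∈ N, ∀ u ∈ t.sup conjT, n * u * n⁻¹ ∈ t.sup conjT := by
    intro t n hn u hu
    have h1 : (t.sup conjT).map (MulAut.conj n).toMonoidHom ≤ t.sup conjT := by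
      rw [Subgroup.map_le_iff_le_comap]
      exact Finset.sup_le fun g hg v hv => (Finset.le_sup (f := conjT) hg) (hcn g n hn v hv)
    exact h1 ⟨u, hu, rfl⟩
  have hcardsup : ∀ t, t ⊆ s → Nat.card (t.sup conjT : Subgroup X) = Nat.card T ^ t.card := by
    intro t
    induction t using Finset.induction_on with
    | empty => intro _; simp
    | insert g t hg ih =>
      intro ht
      have hts := (Finset.subset_insert g t).trans ht
      rw [Finset.sup_insert, Finset.card_insert_of_notMem hg, pow_succ, ← ih hts]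
      have hbot : conjT g ⊓ t.sup conjT = ⊥ := by
        rcases hdisj g (t.sup conjT) (hsupn t) with h1 | h1
        · exfalso
          refine hsmin (s.erase g) (Finset.erase_ssubset (ht (Finset.mem_insert_self g t))) ?_
          refine le_antisymm (Finset.sup_le fun b _ => hNc b) ?_
          rw [← hs]
          refine Finset.sup_le fun b hb => ?_
          by_cases hbg : b = g
          · rw [hbg]
            exact h1.trans (Finset.sup_mono fun c hc =>
              Finset.mem_erase.mpr ⟨fun e => hg (e ▸ hc), hts hc⟩)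
          · exact Finset.le_sup (f := conjT) (Finset.mem_erase.mpr ⟨hbg, hb⟩)
        · exact h1
      have hnorm : t.sup conjT ≤ Subgroup.normalizer (conjT g : Set X) := fun u hu => by
        have huN : u ∈ N := (Finset.sup_le fun b _ => hNc b : t.sup conjT ≤ N) hu
        rw [Subgroup.mem_normalizer_iff]
        refine fun v => ⟨fun hv => hcn g u huN v hv, fun hv => ?_⟩
        have := hcn g u⁻¹ (N.inv_mem huN) _ hv
        rwa [show u⁻¹ * (u * v * u⁻¹) * u⁻¹⁻¹ = v by group] at this
      rw [mul_comm, ← hcard g, ← Nat.card_prod]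
      refine (Nat.card_eq_of_bijective (fun q : ↥(conjT g) × ↥(t.sup conjT) =>
        (⟨(q.1 : X) * q.2, Subgroup.mul_mem_sup q.1.2 q.2.2⟩ : ↥(conjT g ⊔ t.sup conjT))) ⟨?_, ?_⟩).symm
      · rintro ⟨a, b⟩ ⟨a', b'⟩ he
        have he' : (a : X) * b = a' * b' := congrArg Subtype.val he
        have h2 : (a' : X)⁻¹ * a ∈ conjT g ⊓ t.sup conjT := by
          refine ⟨(conjT g).mul_mem ((conjT g).inv_mem a'.2) a.2, ?_⟩
          have : (a' : X)⁻¹ * a = (b' : X) * (b : X)⁻¹ := by
            rw [eq_mul_inv_iff_mul_eq, mul_assoc, he', inv_mul_cancel_left]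
          rw [this]
          exact (t.sup conjT).mul_mem b'.2 ((t.sup conjT).inv_mem b.2)
        rw [hbot, Subgroup.mem_bot, inv_mul_eq_one] at h2
        have ha' : a' = a := Subtype.ext h2
        subst ha'
        exact Prod.ext rfl (Subtype.ext (mul_left_cancel he'))
      · rintro ⟨u, hu⟩
        have hu' : u ∈ ((conjT g ⊔ t.sup conjT : Subgroup X) : Set X) := hu
        rw [Subgroup.coe_mul_of_right_le_normalizer_left _ _ hnorm] at hu'
        obtain ⟨a, ha, b, hb, rfl⟩ := hu'
        exact ⟨(⟨a, ha⟩, ⟨b, hb⟩), rfl⟩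
  have hNcard : Nat.card N = Nat.card T ^ s.card := by
    rw [← hcardsup s subset_rfl, hs]
  have hTeven : 2 ∣ Nat.card T := by
    rw [Nat.not_odd_iff_even, even_iff_two_dvd, hNcard] at hodd
    exact Nat.prime_two.dvd_of_dvd_pow hodd
  have hsle : s.card ≤ a := by
    rw [hNcard, Nat.factorization_pow, Finsupp.smul_apply, smul_eq_mul] at ha
    exact le_trans (Nat.le_mul_of_pos_right _
      (Nat.prime_two.factorization_pos_of_dvd Nat.card_pos.ne' hTeven)) ha
  have hTna : ∃ u ∈ T, ∃ v ∈ T, u * v ≠ v * u := by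
    by_contra hc
    push Not at hc
    have hpair : ∀ g h, ∀ u ∈ conjT g, ∀ v ∈ conjT h, u * v = v * u := by
      intro g h u hu v hv
      by_cases he : conjT g = conjT h
      · rw [← he, hmem] at hv
        rw [hmem] at hu
        have h3 := hc _ hu _ hv
        calc u * v = g * ((g⁻¹ * u * g) * (g⁻¹ * v * g)) * g⁻¹ := by group
          _ = g * ((g⁻¹ * v * g) * (g⁻¹ * u * g)) * g⁻¹ := by rw [h3]
          _ = _ := by group
      · exact hcomm g h he u hu v hv
    obtain ⟨u, hu, v, hv, huv⟩ := hab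
    have h1 : N ≤ Subgroup.centralizer (N : Set X) := by
      rw [Subgroup.le_centralizer_iff]
      conv_lhs => rw [← hgen]
      refine Finset.sup_le fun g _ => ?_
      rw [Subgroup.le_centralizer_iff]
      conv_lhs => rw [← hgen]
      exact Finset.sup_le fun h _ v hv u hu => hpair g h u hu v hv
    exact huv (h1 hv u hu)
  have hTsimple : ∀ K : Subgroup X, K ≤ T → (∀ t ∈ T, ∀ k ∈ K, t * k * t⁻¹ ∈ K) → K = ⊥ ∨ K = T := by
    intro K hKT hK
    have hnorm : ∀ n ∈ N, ∀ k ∈ K, n * k * n⁻¹ ∈ K := by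
      have h1 : N ≤ Subgroup.normalizer (K : Set X) := by
        rw [← hgen]
        refine Finset.sup_le fun g _ u hu => ?_
        by_cases he : conjT g = conjT 1
        · rw [he, hmem] at hu
          simp only [inv_one, one_mul, mul_one] at hu
          rw [Subgroup.mem_normalizer_iff]
          refine fun k => ⟨fun hk => hK u hu k hk, fun hk => ?_⟩
          have := hK u⁻¹ (T.inv_mem hu) _ hk
          rwa [show u⁻¹ * (u * k * u⁻¹) * u⁻¹⁻¹ = k by group] at this
        · have hk1 : ∀ k, k ∈ K → u * k * u⁻¹ = k := fun k hk => by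
            rw [hcomm g 1 he u hu k ((hmem 1 k).mpr (by simpa using hKT hk)), mul_inv_cancel_right]
          rw [Subgroup.mem_normalizer_iff]
          refine fun k => ⟨fun hk => by rw [hk1 k hk]; exact hk, fun hk => ?_⟩
          have h2 := hk1 _ hk
          have h3 : u * k * u⁻¹ = k := mul_left_cancel (a := u) (mul_right_cancel (b := u⁻¹) h2)
          rwa [h3] at hk
      exact fun n hn k hk => (Subgroup.mem_normalizer_iff.mp (h1 hn) k).mp hk
    by_cases hK0 : K = ⊥
    · exact Or.inl hK0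
    · exact Or.inr (le_antisymm hKT (hT.2 ⟨hKT.trans hTN, hK0, hnorm⟩ hKT))
  have hTbound : Nat.card T ≤ max m (2 * m * m).factorial := by
    by_cases he : conjT x = conjT 1
    · refine card_simple_le hxx (fun t ht => ?_) hTsimple hTna
        (le_trans (Nat.card_mono (Set.toFinite _) fun t ht => (⟨hTN ht.1, ht.2⟩ :
          t ∈ N ⊓ Subgroup.centralizer ({x} : Set X))) hm)
      have h3 : x * t * x⁻¹ ∈ conjT x := (hmem _ _).mpr (by
        rwa [show x⁻¹ * (x * t * x⁻¹) * x = t by group])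
      rw [he, hmem] at h3
      simpa using h3
    · refine le_trans ?_ (le_max_left _ _)
      refine le_trans ?_ hm
      have hbot : conjT x ⊓ conjT 1 = ⊥ := by
        rcases hdisj x (conjT 1) (hcn 1) with h1 | h1
        · exact absurd (Subgroup.eq_of_le_of_card_ge h1 (by rw [hcard, hcard])) he
        · exact h1
      have h1T : ∀ t ∈ T, t ∈ conjT 1 := fun t ht => (hmem 1 t).mpr (by simpa using ht)
      have hxT : ∀ t ∈ T, x * t * x⁻¹ ∈ conjT x := fun t ht => (hmem _ _).mpr (by
        rwa [show x⁻¹ * (x * t * x⁻¹) * x = t by group])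
      refine Nat.card_le_card_of_injective (fun t : T => (⟨(t : X) * (x * t * x⁻¹),
        ⟨N.mul_mem (hTN t.2) (hNn.conj_mem _ (hTN t.2) x), ?_⟩⟩ :
          ↥(N ⊓ Subgroup.centralizer ({x} : Set X)))) ?_
      · refine Subgroup.mem_centralizer_singleton_iff.mpr ?_
        have hc := hcomm x 1 he _ (hxT t t.2) _ (h1T t t.2)
        calc (t : X) * (x * t * x⁻¹) * x = x * t * x⁻¹ * t * x := by rw [← hc]
          _ = x * ((t : X) * (x⁻¹ * t * x)) := by group
          _ = _ := by rw [inv_eq_of_mul_eq_one_right hxx]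
      · intro a b hab
        have hab' : (a : X) * (x * a * x⁻¹) = b * (x * b * x⁻¹) := congrArg Subtype.val hab
        have h2 : (b : X)⁻¹ * a ∈ conjT x ⊓ conjT 1 := by
          refine ⟨?_, (conjT 1).mul_mem ((conjT 1).inv_mem (h1T b b.2)) (h1T a a.2)⟩
          have : (b : X)⁻¹ * a = (x * b * x⁻¹) * (x * a * x⁻¹)⁻¹ := by
            rw [eq_mul_inv_iff_mul_eq, mul_assoc, hab', inv_mul_cancel_left]
          rw [this]
          exact (conjT x).mul_mem (hxT b b.2) ((conjT x).inv_mem (hxT a a.2))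
        rw [hbot, Subgroup.mem_bot, inv_mul_eq_one] at h2
        exact Subtype.ext h2.symm
  rw [hNcard]
  calc Nat.card T ^ s.card ≤ (max m (2 * m * m).factorial) ^ s.card := Nat.pow_le_pow_left hTbound _
    _ ≤ _ := Nat.pow_le_pow_right (lt_of_lt_of_le (Nat.factorial_pos _) (le_max_right _ _)) hsle

theorem card_eq_card_mul_card_map (H K : Subgroup X) [K.Normal] (hKH : K ≤ H) :
    Nat.card H = Nat.card K * Nat.card (H.map (QuotientGroup.mk' K)) := by
  rw [← Subgroup.relIndex_ker (K := H) (QuotientGroup.mk' K), QuotientGroup.ker_mk',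
    Subgroup.relIndex]
  conv_lhs => rw [← Subgroup.card_mul_index (K.subgroupOf H)]
  congr 1
  exact Nat.card_congr (Subgroup.subgroupOfEquivOfLe hKH).toEquiv

/-- A normal subgroup with bounded centralisers of a four-group and bounded 2-part is bounded. -/
theorem card_bounded (a : ℕ) : ∀ m : ℕ, ∃ B : ℕ, ∀ (X : Type u) [Group X] [Finite X]
    (H : Subgroup X) [H.Normal] (x y : X), x * x = 1 → y * y = 1 → Commute x y →
    (Nat.card H).factorization 2 ≤ a →
    Nat.card ↥(H ⊓ Subgroup.centralizer ({x} : Set X)) ≤ m →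
    Nat.card ↥(H ⊓ Subgroup.centralizer ({y} : Set X)) ≤ m →
    Nat.card ↥(H ⊓ Subgroup.centralizer ({x * y} : Set X)) ≤ m → Nat.card H ≤ B := by
  -- the case without odd normal subgroups
  suffices hQ : ∀ m : ℕ, ∃ B : ℕ, ∀ (X : Type u) [Group X] [Finite X]
      (H : Subgroup X) [H.Normal] (x y : X), x * x = 1 → y * y = 1 → Commute x y →
      (Nat.card H).factorization 2 ≤ a →
      Nat.card ↥(H ⊓ Subgroup.centralizer ({x} : Set X)) ≤ m →
      Nat.card ↥(H ⊓ Subgroup.centralizer ({y} : Set X)) ≤ m →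
      Nat.card ↥(H ⊓ Subgroup.centralizer ({x * y} : Set X)) ≤ m →
      (∀ L : Subgroup X, L.Normal → L ≤ H → Odd (Nat.card L) → L = ⊥) → Nat.card H ≤ B by
    intro m
    obtain ⟨B, hB⟩ := hQ (m * (m * m * m))
    refine ⟨(m * m * m) * B, fun X _ _ H _ x y hxx hyy hxy ha hx hy hz => ?_⟩
    obtain ⟨O, hO⟩ := (Set.toFinite {L : Subgroup X | L.Normal ∧ L ≤ H ∧ Odd (Nat.card L)}).exists_maximal
      ⟨⊥, inferInstance, bot_le, by rw [Subgroup.card_bot]; exact odd_one⟩
    obtain ⟨hOn, hOH, hOodd⟩ := hO.1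
    haveI := hOn
    have hsub : ∀ v : X, Nat.card ↥(O ⊓ Subgroup.centralizer ({v} : Set X))
        ≤ Nat.card ↥(H ⊓ Subgroup.centralizer ({v} : Set X)) :=
      fun v => Nat.card_mono (Set.toFinite _) (inf_le_inf_right _ hOH)
    have hOc := card_odd_le hOodd hxx hyy hxy ((hsub x).trans hx) ((hsub y).trans hy) ((hsub _).trans hz)
    haveI : (H.map (QuotientGroup.mk' O)).Normal :=
      Subgroup.Normal.map inferInstance _ (QuotientGroup.mk'_surjective O)
    have hq : ∀ v : X, Nat.card ↥(H ⊓ Subgroup.centralizer ({v} : Set X)) ≤ m →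
        Nat.card ↥(H.map (QuotientGroup.mk' O) ⊓ Subgroup.centralizer ({(v : X ⧸ O)} : Set (X ⧸ O)))
          ≤ m * (m * m * m) := fun v hv =>
      (card_map_centralizer_le H O hOH v).trans (Nat.mul_le_mul hv hOc)
    rw [card_eq_card_mul_card_map H O hOH]
    refine Nat.mul_le_mul hOc (hB (X ⧸ O) _ (x : X ⧸ O) (y : X ⧸ O)
      (by rw [← QuotientGroup.mk_mul, hxx, QuotientGroup.mk_one])
      (by rw [← QuotientGroup.mk_mul, hyy, QuotientGroup.mk_one])
      (hxy.map (QuotientGroup.mk' O)) ?_ (hq x hx) (hq y hy)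
      (by rw [← QuotientGroup.mk_mul]; exact hq _ hz) ?_)
    · exact le_trans ((Nat.factorization_le_iff_dvd Nat.card_pos.ne' Nat.card_pos.ne').mpr
        (Subgroup.card_map_dvd _ _) 2) ha
    · intro L hL hLH hLodd
      haveI := hL
      have h1 : O ≤ L.comap (QuotientGroup.mk' O) := by
        exact (QuotientGroup.ker_mk' O).symm.le.trans (MonoidHom.ker_le_comap _ _)
      have h2 : L.comap (QuotientGroup.mk' O) ≤ H := by
        refine (Subgroup.comap_mono hLH).trans ?_
        rw [Subgroup.comap_map_eq, QuotientGroup.ker_mk']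
        exact sup_le le_rfl hOH
      have h3 : Odd (Nat.card ↥(L.comap (QuotientGroup.mk' O))) := by
        rw [card_eq_card_mul_card_map _ O h1,
          Subgroup.map_comap_eq_self_of_surjective (QuotientGroup.mk'_surjective O)]
        exact hOodd.mul hLodd
      have h4 := le_antisymm (hO.2 ⟨inferInstance, h2, h3⟩ h1) h1
      rw [← Subgroup.map_comap_eq_self_of_surjective (QuotientGroup.mk'_surjective O) L, h4,
        QuotientGroup.map_mk'_self]
  induction a using Nat.strong_induction_on with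
  | _ a ih =>
    intro m
    set NB := max (2 ^ a) ((max m (2 * m * m).factorial) ^ a) with hNB
    have hprev : ∀ b : Fin a, ∃ B : ℕ, ∀ (X : Type u) [Group X] [Finite X]
        (H : Subgroup X) [H.Normal] (x y : X), x * x = 1 → y * y = 1 → Commute x y →
        (Nat.card H).factorization 2 ≤ (b : ℕ) →
        Nat.card ↥(H ⊓ Subgroup.centralizer ({x} : Set X)) ≤ m * NB →
        Nat.card ↥(H ⊓ Subgroup.centralizer ({y} : Set X)) ≤ m * NB →
        Nat.card ↥(H ⊓ Subgroup.centralizer ({x * y} : Set X)) ≤ m * NB → Nat.card H ≤ B := by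
      intro b
      -- the statement with odd normal subgroups allowed, from the one without
      obtain ⟨B, hB⟩ := ih b b.2 ((m * NB) * ((m * NB) * (m * NB) * (m * NB)))
      refine ⟨((m * NB) * (m * NB) * (m * NB)) * B, fun X _ _ H _ x y hxx hyy hxy ha hx hy hz => ?_⟩
      obtain ⟨O, hO⟩ := (Set.toFinite {L : Subgroup X | L.Normal ∧ L ≤ H ∧ Odd (Nat.card L)}).exists_maximal
        ⟨⊥, inferInstance, bot_le, by rw [Subgroup.card_bot]; exact odd_one⟩
      obtain ⟨hOn, hOH, hOodd⟩ := hO.1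
      haveI := hOn
      have hsub : ∀ v : X, Nat.card ↥(O ⊓ Subgroup.centralizer ({v} : Set X))
          ≤ Nat.card ↥(H ⊓ Subgroup.centralizer ({v} : Set X)) :=
        fun v => Nat.card_mono (Set.toFinite _) (inf_le_inf_right _ hOH)
      have hOc := card_odd_le hOodd hxx hyy hxy ((hsub x).trans hx) ((hsub y).trans hy)
        ((hsub _).trans hz)
      haveI : (H.map (QuotientGroup.mk' O)).Normal :=
        Subgroup.Normal.map inferInstance _ (QuotientGroup.mk'_surjective O)
      have hq : ∀ v : X, Nat.card ↥(H ⊓ Subgroup.centralizer ({v} : Set X)) ≤ m * NB →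
          Nat.card ↥(H.map (QuotientGroup.mk' O) ⊓ Subgroup.centralizer ({(v : X ⧸ O)} : Set (X ⧸ O)))
            ≤ (m * NB) * ((m * NB) * (m * NB) * (m * NB)) := fun v hv =>
        (card_map_centralizer_le H O hOH v).trans (Nat.mul_le_mul hv hOc)
      rw [card_eq_card_mul_card_map H O hOH]
      refine Nat.mul_le_mul hOc (hB (X ⧸ O) _ (x : X ⧸ O) (y : X ⧸ O)
        (by rw [← QuotientGroup.mk_mul, hxx, QuotientGroup.mk_one])
        (by rw [← QuotientGroup.mk_mul, hyy, QuotientGroup.mk_one])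
        (hxy.map (QuotientGroup.mk' O)) ?_ (hq x hx) (hq y hy)
        (by rw [← QuotientGroup.mk_mul]; exact hq _ hz) ?_)
      · exact le_trans ((Nat.factorization_le_iff_dvd Nat.card_pos.ne' Nat.card_pos.ne').mpr
          (Subgroup.card_map_dvd _ _) 2) ha
      · intro L hL hLH hLodd
        haveI := hL
        have h1 : O ≤ L.comap (QuotientGroup.mk' O) := by
          exact (QuotientGroup.ker_mk' O).symm.le.trans (MonoidHom.ker_le_comap _ _)
        have h2 : L.comap (QuotientGroup.mk' O) ≤ H := by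
          refine (Subgroup.comap_mono hLH).trans ?_
          rw [Subgroup.comap_map_eq, QuotientGroup.ker_mk']
          exact sup_le le_rfl hOH
        have h3 : Odd (Nat.card ↥(L.comap (QuotientGroup.mk' O))) := by
          rw [card_eq_card_mul_card_map _ O h1,
            Subgroup.map_comap_eq_self_of_surjective (QuotientGroup.mk'_surjective O)]
          exact hOodd.mul hLodd
        have h4 := le_antisymm (hO.2 ⟨inferInstance, h2, h3⟩ h1) h1
        rw [← Subgroup.map_comap_eq_self_of_surjective (QuotientGroup.mk'_surjective O) L, h4,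
          QuotientGroup.map_mk'_self]
    choose Bs hBs using hprev
    refine ⟨max 1 (NB * Finset.univ.sup Bs), fun X _ _ H _ x y hxx hyy hxy ha hx hy hz hodd => ?_⟩
    by_cases hH : H = ⊥
    · rw [hH, Subgroup.card_bot]; exact le_max_left _ _
    refine le_trans ?_ (le_max_right _ _)
    obtain ⟨N, hNn, hNne, hNH, hmin⟩ := MinNormal.exists_minimal_normal_le H hH
    haveI := hNn
    have hNodd : ¬ Odd (Nat.card N) := fun h => hNne (hodd N hNn hNH h)
    have haN : (Nat.card N).factorization 2 ≤ a := le_trans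
      ((Nat.factorization_le_iff_dvd Nat.card_pos.ne' Nat.card_pos.ne').mpr
        (Subgroup.card_dvd_of_le hNH) 2) ha
    have hNc : Nat.card N ≤ NB := card_minimal_normal_le hmin hNodd hxx haN
      ((Nat.card_mono (Set.toFinite _) (inf_le_inf_right _ hNH)).trans hx)
    have hN2 : 0 < (Nat.card N).factorization 2 := by
      rw [Nat.not_odd_iff_even, even_iff_two_dvd] at hNodd
      exact Nat.prime_two.factorization_pos_of_dvd Nat.card_pos.ne' hNodd
    haveI : (H.map (QuotientGroup.mk' N)).Normal :=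
      Subgroup.Normal.map inferInstance _ (QuotientGroup.mk'_surjective N)
    have hq : ∀ v : X, Nat.card ↥(H ⊓ Subgroup.centralizer ({v} : Set X)) ≤ m →
        Nat.card ↥(H.map (QuotientGroup.mk' N) ⊓ Subgroup.centralizer ({(v : X ⧸ N)} : Set (X ⧸ N)))
          ≤ m * NB := fun v hv =>
      (card_map_centralizer_le H N hNH v).trans (Nat.mul_le_mul hv hNc)
    have hfac : (Nat.card (H.map (QuotientGroup.mk' N))).factorization 2 < a := by
      rw [card_eq_card_mul_card_map H N hNH, Nat.factorization_mul Nat.card_pos.ne' Nat.card_pos.ne',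
        Finsupp.add_apply] at ha
      omega
    rw [card_eq_card_mul_card_map H N hNH]
    refine Nat.mul_le_mul hNc (le_trans (hBs ⟨_, hfac⟩ (X ⧸ N) _ (x : X ⧸ N) (y : X ⧸ N)
      (by rw [← QuotientGroup.mk_mul, hxx, QuotientGroup.mk_one])
      (by rw [← QuotientGroup.mk_mul, hyy, QuotientGroup.mk_one])
      (hxy.map (QuotientGroup.mk' N)) le_rfl (hq x hx) (hq y hy)
      (by rw [← QuotientGroup.mk_mul]; exact hq _ hz))
      (Finset.le_sup (f := Bs) (Finset.mem_univ _)))

end Cfsg.Agent.BlocksChar
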