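import Cfsg.Agent.BrauerPairs.Bridge
import Cfsg.Agent.Block.Degrees
import Cfsg.Agent.CharInd.Clifford
import Cfsg.Agent.BlocksChar.ClassProd

/-!
# Blocks above a normal subgroup: classes and Clifford orbits
-/

set_option autoImplicit false
set_option linter.style.haveILetI false
set_option linter.unusedSectionVars false

namespace Cfsg.Agent.BlocksChar

open Cfsg Cfsg.Agent.BrauerPairs MonoidAlgebra

set_option maxHeartbeats 400000

universe u

variable {G : Type u} [Group G] [Finite G] {p : ℕ} [Fact p.Prime] {M : Ideal AlgInt} [M.IsPrime]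
  [CharP (Block.ResF M) p]

theorem restr_classSum_eq {k : Type*} [CommRing k] (U : Subgroup G) [Fintype G] [Fintype U]
    (x : U) : Block.restr U (BrauerPairs.classSum k U (x : G)) = Block.classSum k x := by
  classical
  refine Block.groupAlgebra_ext fun v => ?_
  rw [Block.coeff_restr, BrauerPairs.coeff_classSum, Block.coeff_classSum, Set.indicator_apply]
  refine if_congr ⟨?_, ?_⟩ rfl rfl
  · rintro ⟨h, hh, he⟩
    exact isConj_iff.2 ⟨⟨h, hh⟩, Subtype.ext he⟩
  · intro hc
    obtain ⟨c, hc⟩ := isConj_iff.1 hc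
    exact ⟨c, c.2, congrArg Subtype.val hc⟩

open scoped Classical in
/-- Central characters at the indicator of an invariant subset. -/
theorem lam_indicator (U : Subgroup G) (B : Blk M U) (s : Set G)
    (hs : ∀ u ∈ U, ∀ g, u * g * u⁻¹ ∈ s ↔ g ∈ s) [Fintype U] {χ : IrrCharacter U}
    (hχ : χ ∈ B.1) :
    (blockSys M U).lam B (ofFun (Set.indicator s fun _ => (1 : Block.ResF M))) =
      Block.redC M ((∑ v : U, if (v : G) ∈ s then (χ : U → ℂ) v else 0) / (χ : U → ℂ) 1) := by
  letI := Fintype.ofFinite G
  set z : MonoidAlgebra (Block.localRing M) U :=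
    Block.ofFn fun v => if (v : G) ∈ s then 1 else 0 with hzdef
  have hz : Block.IsCentralElt z := fun g h => by
    simp only [hzdef, Block.coeff_ofFn]
    refine if_congr ?_ rfl rfl
    simpa using hs h h.2 g
  have hr : Block.restr U (ofFun (Set.indicator s fun _ => (1 : Block.ResF M))) = Block.toF M z := by
    refine Block.groupAlgebra_ext fun v => ?_
    rw [Block.coeff_restr, BrauerPairs.coeff_ofFun, Block.coeff_mapR, hzdef, Block.coeff_ofFn,
      Set.indicator_apply]
    split_ifs <;> simp
  show Block.lam M _ (Block.restr U _) = _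
  rw [hr, Block.lam_eq_of_sameBlock (blkChar M B).2 χ.2
    (Block.pBlock_sameBlock B.2 (blkChar_mem M B) hχ), Block.lam_toF χ.2 hz,
    Block.omega_eq_sum]
  congr 2
  refine Finset.sum_congr rfl fun v _ => ?_
  rw [Block.coeff_mapR, hzdef, Block.coeff_ofFn]
  split_ifs <;> simp

theorem lam_finset_sum {H : Subgroup G} {κ : Type*} [Fintype κ]
    (S : BlockSys (Block.ResF M) H κ) (i : κ) {β : Type*} (s : Finset β)
    (f : β → MonoidAlgebra (Block.ResF M) G) (c : β → Block.ResF M)
    (hf : ∀ b ∈ s, CentralIn H (f b)) :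
    S.lam i (∑ b ∈ s, c b • f b) = ∑ b ∈ s, c b * S.lam i (f b) := by
  classical
  induction s using Finset.induction_on with
  | empty => simp [S.lam_zero]
  | insert a s ha ih =>
    rw [Finset.sum_insert ha, Finset.sum_insert ha,
      S.lam_add i _ _ ((hf a (Finset.mem_insert_self a s)).smul _)
        (CentralIn.sum s fun b hb => (hf b (Finset.mem_insert_of_mem hb)).smul _),
      S.lam_smul i _ _ (hf a (Finset.mem_insert_self a s)),
      ih fun b hb => hf b (Finset.mem_insert_of_mem hb)]

theorem classSum_conj {k : Type*} [CommRing k] {H : Subgroup G} [H.Normal] (t x : G) :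
    BrauerPairs.classSum k H (t * x * t⁻¹) = cj t (BrauerPairs.classSum k H x) := by
  classical
  letI := Fintype.ofFinite G
  refine Block.groupAlgebra_ext fun g => ?_
  rw [BrauerPairs.coeff_classSum, coeff_cj, BrauerPairs.coeff_classSum, Set.indicator_apply,
    Set.indicator_apply]
  refine if_congr ⟨?_, ?_⟩ rfl rfl
  · rintro ⟨h, hh, rfl⟩
    exact ⟨t⁻¹ * h * t, by simpa using ‹H.Normal›.conj_mem h hh t⁻¹, by group⟩
  · rintro ⟨h, hh, he⟩
    refine ⟨t * h * t⁻¹, ‹H.Normal›.conj_mem h hh t, ?_⟩
    calc t * h * t⁻¹ * (t * x * t⁻¹) * (t * h * t⁻¹)⁻¹ = t * (h * x * h⁻¹) * t⁻¹ := by group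
      _ = g := by rw [he]; group

theorem card_classSet (U : Subgroup G) (x : U) :
    Nat.card (classSet U (x : G)) = (Subgroup.centralizer ({x} : Set U)).index := by
  classical
  letI := Fintype.ofFinite U
  have h : classSet U (x : G) = (Subtype.val : U → G) '' {v : U | IsConj x v} := by
    ext g
    constructor
    · rintro ⟨c, hc, rfl⟩
      exact ⟨⟨c * x * c⁻¹, U.mul_mem (U.mul_mem hc x.2) (U.inv_mem hc)⟩,
        isConj_iff.2 ⟨⟨c, hc⟩, rfl⟩, rfl⟩
    · rintro ⟨v, hv, rfl⟩
      obtain ⟨c, hc⟩ := isConj_iff.1 hv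
      exact ⟨c, c.2, congrArg Subtype.val hc⟩
  rw [h, Nat.card_image_of_injective Subtype.val_injective, ← Char.card_isConj_eq_index,
    ← Nat.card_eq_finsetCard]
  exact Nat.card_congr (Equiv.subtypeEquivRight fun v => by simp)

/-- The stabiliser of a function on a normal subgroup. -/
def conjStab (N : Subgroup G) [N.Normal] (θ : N → ℂ) : Subgroup G where
  carrier := {g | CharInd.conjChar N g θ = θ}
  one_mem' := CharInd.conjChar_one N θ
  mul_mem' := fun {a b} ha hb => by
    show CharInd.conjChar N (a * b) θ = θ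
    rw [CharInd.conjChar_mul, show CharInd.conjChar N a θ = θ from ha,
      show CharInd.conjChar N b θ = θ from hb]
  inv_mem' := fun {a} ha => by
    show CharInd.conjChar N a⁻¹ θ = θ
    conv_lhs => rw [← show CharInd.conjChar N a θ = θ from ha]
    rw [← CharInd.conjChar_mul, mul_inv_cancel, CharInd.conjChar_one]

theorem card_conjClass [Fintype G] (N : Subgroup G) [N.Normal] (θ : N → ℂ) :
    (CharInd.conjClass N θ).card = (conjStab N θ).index := by
  classical
  refine Nat.eq_of_mul_eq_mul_left (Nat.card_pos (α := conjStab N θ)) ?_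
  rw [Subgroup.card_mul_index, mul_comm]
  have hfib : ∀ ψ ∈ CharInd.conjClass N θ,
      (Finset.univ.filter fun g : G => CharInd.conjChar N g θ = ψ).card =
        Nat.card (conjStab N θ) := by
    intro ψ hψ
    obtain ⟨x, rfl⟩ := (CharInd.mem_conjClass N).1 hψ
    rw [Nat.card_eq_fintype_card, ← Fintype.card_coe]
    refine Fintype.card_congr ((Equiv.mulRight x⁻¹).subtypeEquiv fun g => ?_)
    simp only [Finset.mem_filter, Finset.mem_univ, true_and, Equiv.coe_mulRight]
    show _ ↔ CharInd.conjChar N (g * x⁻¹) θ = θ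
    rw [CharInd.conjChar_mul]
    constructor
    · intro h
      rw [h, ← CharInd.conjChar_mul, mul_inv_cancel, CharInd.conjChar_one]
    · intro h
      have h' := congrArg (CharInd.conjChar N x) h
      rwa [← CharInd.conjChar_mul, ← CharInd.conjChar_mul, inv_mul_cancel, mul_one] at h'
  rw [← Finset.sum_const_nat hfib, Nat.card_eq_fintype_card, ← Finset.card_univ]
  refine (Finset.card_eq_sum_card_fiberwise fun g _ => ?_).symm
  exact (CharInd.mem_conjClass N).2 ⟨g, rfl⟩

end Cfsg.Agent.BlocksChar
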