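import Cfsg.Agent.BlocksChar.Sunflower

/-!
# The sign count for the three relations of an index three principal block
-/

set_option autoImplicit false

namespace Cfsg.Agent.BlocksChar

/-- One negative sign is impossible. -/
theorem eq_zero_of_one_negative {dj dk dl U V W : ℚ} (hj : 0 < dj) (hk : 0 < dk) (hl : 0 < dl)
    (hdeg : 1 + dj + dk = dl) (hW : U + V = W) (hq : U ^ 2 / dj + V ^ 2 / dk = W ^ 2 / dl) :
    U = 0 := by
  subst hW hdeg
  field_simp at hq
  have h1 : (U * dk - V * dj) ^ 2 + U ^ 2 * dk + V ^ 2 * dj = 0 := by linear_combination hq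
  have h2 := sq_nonneg (U * dk - V * dj)
  have h3 : 0 ≤ V ^ 2 * dj := mul_nonneg (sq_nonneg _) hj.le
  have h4 : 0 ≤ U ^ 2 * dk := mul_nonneg (sq_nonneg _) hk.le
  have h5 : U ^ 2 * dk = 0 := by linarith
  simpa [hk.ne'] using h5

/-- Exactly two of the three signs are negative, and the product of the degrees is a square. -/
theorem sign_count {a b c : ℕ} (ha : 0 < a) (hb : 0 < b) (hc : 0 < c) {s t ε x y z : ℤ}
    (hs : s = 1 ∨ s = -1) (ht : t = 1 ∨ t = -1) (hε : ε = 1 ∨ ε = -1)
    (hx : x ≠ (a : ℤ)) (hy : y ≠ (b : ℤ)) (hz : z ≠ (c : ℤ))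
    (q1 : (1 : ℚ) + s * a + t * b + ε * c = 0)
    (q2 : (1 : ℚ) + s * x + t * y + ε * z = 0)
    (q3 : (1 : ℚ) + s * ((x : ℚ) ^ 2 / a) + t * ((y : ℚ) ^ 2 / b) + ε * ((z : ℚ) ^ 2 / c) = 0) :
    (if s = -1 then 1 else 0) + (if t = -1 then 1 else 0) + (if -ε = 1 then 1 else 0) = 2 ∧
      IsSquare (c * (a * b)) := by
  have pa : (0 : ℚ) < a := Nat.cast_pos.2 ha
  have pb : (0 : ℚ) < b := Nat.cast_pos.2 hb
  have pc : (0 : ℚ) < c := Nat.cast_pos.2 hc
  set U : ℚ := ((x - a : ℤ) : ℚ) with hU
  set V : ℚ := ((y - b : ℤ) : ℚ) with hV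
  set W : ℚ := ((z - c : ℤ) : ℚ) with hW
  have nU : U ≠ 0 := by rw [hU]; exact_mod_cast sub_ne_zero.2 hx
  have nV : V ≠ 0 := by rw [hV]; exact_mod_cast sub_ne_zero.2 hy
  have r2 : (s : ℚ) * U + t * V + ε * W = 0 := by
    simp only [hU, hV, hW, Int.cast_sub, Int.cast_natCast]
    linear_combination q2 - q1
  have r3 : (s : ℚ) * (U ^ 2 / a) + t * (V ^ 2 / b) + ε * (W ^ 2 / c) = 0 := by
    have hsq : ∀ (w d : ℚ), d ≠ 0 → (w - d) ^ 2 / d = w ^ 2 / d - 2 * w + d := fun w d hd => by
      field_simp; ring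
    simp only [hU, hV, hW, Int.cast_sub, Int.cast_natCast, hsq _ _ pa.ne', hsq _ _ pb.ne',
      hsq _ _ pc.ne']
    linear_combination q3 - 2 * q2 + q1
  have b1 : (1 : ℚ) ≤ a := by exact_mod_cast ha
  have b2 : (1 : ℚ) ≤ b := by exact_mod_cast hb
  rcases hs with rfl | rfl <;> rcases ht with rfl | rfl <;> rcases hε with rfl | rfl <;>
    push_cast at q1 r2 r3 <;> simp only [one_mul, neg_mul] at q1 r2 r3
  · linarith
  · exact absurd (eq_zero_of_one_negative (U := U) (V := V) (W := W) pa pb pc (by linarith)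
      (by linarith) (by linarith)) nU
  · exact absurd (eq_zero_of_one_negative (U := U) (V := W) (W := V) pa pc pb (by linarith)
      (by linarith) (by linarith)) nU
  · refine ⟨by norm_num, ?_⟩
    rw [show c * (a * b) = a * b * c by ring]
    refine isSquare_of_relations (U := y - b) (V := z - c) (W := x - a) hb hc ha ?_
      (sub_ne_zero.2 hz) ?_ ?_
    · exact_mod_cast (show (1 : ℚ) + a = b + c by linarith)
    · have e : U = V + W := by linarith
      simp only [hU, hV, hW] at e
      exact_mod_cast e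
    · rw [← hU, ← hV, ← hW]; linarith
  · exact absurd (eq_zero_of_one_negative (U := V) (V := W) (W := U) pb pc pa (by linarith)
      (by linarith) (by linarith)) nV
  · refine ⟨by norm_num, ?_⟩
    rw [show c * (a * b) = b * a * c by ring]
    refine isSquare_of_relations (U := x - a) (V := z - c) (W := y - b) ha hc hb ?_
      (sub_ne_zero.2 hz) ?_ ?_
    · exact_mod_cast (show (1 : ℚ) + b = a + c by linarith)
    · have e : V = U + W := by linarith
      simp only [hU, hV, hW] at e
      exact_mod_cast e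
    · rw [← hU, ← hV, ← hW]; linarith
  · refine ⟨by norm_num, ?_⟩
    rw [← mul_assoc]
    refine isSquare_of_relations (U := x - a) (V := y - b) (W := z - c) ha hb hc ?_
      (sub_ne_zero.2 hy) ?_ ?_
    · exact_mod_cast (show (1 : ℚ) + c = a + b by linarith)
    · have e : W = U + V := by linarith
      simp only [hU, hV, hW] at e
      exact_mod_cast e
    · rw [← hU, ← hV, ← hW]; linarith
  · exfalso; linarith

end Cfsg.Agent.BlocksChar
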