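import Mathlib.GroupTheory.GroupAction.Quotient
import Mathlib.GroupTheory.GroupAction.ConjAct
import Mathlib.Algebra.BigOperators.Field
import Mathlib.Algebra.Order.Floor.Ring
import Mathlib.Data.Rat.Floor
import Mathlib.Data.Fintype.Card
import Mathlib.SetTheory.Cardinal.Finite
import Mathlib.GroupTheory.Index
import Mathlib.Algebra.Order.BigOperators.Group.Multiset
import Mathlib.Tactic
import Mathlib.GroupTheory.ClassEquation

/-!
# Landau's theorem: finitely many groups with a given number of classes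
-/

set_option autoImplicit false

namespace Cfsg.Agent.BlocksChar

universe u

theorem egyptian_bound : ∀ (k : ℕ) (q : ℚ), ∃ B : ℕ, ∀ s : Multiset ℕ, Multiset.card s ≤ k →
    (∀ n ∈ s, 0 < n) → (s.map fun n : ℕ => (1 : ℚ) / (n : ℚ)).sum = q → ∀ n ∈ s, n ≤ B := by
  intro k
  induction k with
  | zero =>
    refine fun q => ⟨0, fun s hs _ _ n hn => ?_⟩
    rw [Nat.le_zero, Multiset.card_eq_zero] at hs
    simp [hs] at hn
  | succ k ih =>
    intro q
    choose B hB using fun m : ℕ => ih (q - 1 / m)
    set L := ⌈((k : ℚ) + 1) / q⌉₊ with hL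
    refine ⟨(Finset.range (L + 1)).sup (fun m => max m (B m)), fun s hs hpos hsum n hn => ?_⟩
    obtain ⟨m, hm, hmin⟩ := Finset.exists_min_image s.toFinset id ⟨n, Multiset.mem_toFinset.mpr hn⟩
    simp only [Multiset.mem_toFinset, id] at hm hmin
    have hm0 : (0 : ℚ) < m := Nat.cast_pos.mpr (hpos m hm)
    have hle : q ≤ (Multiset.card s : ℚ) * (1 / m) := by
      rw [← hsum]
      refine le_trans (Multiset.sum_map_le_sum_map _ (fun _ => (1 : ℚ) / m) fun x hx => ?_) ?_
      · exact one_div_le_one_div_of_le hm0 (Nat.cast_le.mpr (hmin x hx))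
      · simp
    have hq : 0 < q := by
      rw [← hsum, ← Multiset.cons_erase hm, Multiset.map_cons, Multiset.sum_cons]
      refine add_pos_of_pos_of_nonneg (one_div_pos.mpr hm0) (Multiset.sum_nonneg ?_)
      intro x hx
      obtain ⟨y, -, rfl⟩ := Multiset.mem_map.mp hx
      positivity
    have hmL : m ≤ L := by
      have h1 : q * m ≤ (k : ℚ) + 1 := by
        have h2 : (Multiset.card s : ℚ) ≤ (k : ℚ) + 1 := by exact_mod_cast hs
        rw [mul_one_div, le_div_iff₀ hm0] at hle
        linarith
      have : (m : ℚ) ≤ ((k : ℚ) + 1) / q := by rw [le_div_iff₀ hq]; linarith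
      exact Nat.cast_le.mp (this.trans (Nat.le_ceil _))
    refine le_trans ?_ (Finset.le_sup (f := fun m => max m (B m)) (Finset.mem_range.mpr (Nat.lt_succ_of_le hmL)))
    by_cases hnm : n = m
    · simp [hnm]
    refine le_trans ?_ (le_max_right _ _)
    refine hB m (s.erase m) ?_ (fun x hx => hpos x (Multiset.mem_of_mem_erase hx)) ?_ n
      ((Multiset.mem_erase_of_ne hnm).mpr hn)
    · rw [Multiset.card_erase_of_mem hm]; exact Nat.pred_le_iff.mpr hs
    · rw [← hsum]
      conv_rhs => rw [← Multiset.cons_erase hm, Multiset.map_cons, Multiset.sum_cons]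
      ring

/-- A finite group with at most `k` conjugacy classes has order bounded in terms of `k`. -/
theorem landau (k : ℕ) : ∃ N : ℕ, ∀ (G : Type u) [Group G] [Finite G],
    Nat.card (ConjClasses G) ≤ k → Nat.card G ≤ N := by
  classical
  obtain ⟨B, hB⟩ := egyptian_bound k 1
  refine ⟨B, fun G _ _ hk => ?_⟩
  letI := Fintype.ofFinite G
  haveI : Finite (ConjClasses G) := Finite.of_surjective _ ConjClasses.mk_surjective
  letI := Fintype.ofFinite (ConjClasses G)
  have hcard : ∀ x : ConjClasses G, ∃ n : ℕ, 0 < n ∧ x.carrier.toFinset.card * n = Nat.card G := by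
    intro x
    obtain ⟨g, rfl⟩ := ConjClasses.mk_surjective x
    refine ⟨Nat.card (MulAction.stabilizer (ConjAct G) g), Nat.card_pos, ?_⟩
    have h := Nat.card_congr (MulAction.orbitProdStabilizerEquivGroup (ConjAct G) g)
    rw [Nat.card_prod] at h
    have e : (MulAction.orbit (ConjAct G) g) = (ConjClasses.mk g).carrier := by
      ext y
      rw [ConjAct.mem_orbit_conjAct, ConjClasses.mem_carrier_iff_mk_eq, ConjClasses.mk_eq_mk_iff_isConj]
    rw [← Set.ncard_eq_toFinset_card', ← Nat.card_coe_set_eq, ← e, h]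
    exact Nat.card_congr ConjAct.ofConjAct.toEquiv
  choose n hn0 hn using hcard
  have hsum : (((Finset.univ : Finset (ConjClasses G)).val.map n).map fun m : ℕ => (1 : ℚ) / (m : ℚ)).sum = 1 := by
    rw [Multiset.map_map]
    show ∑ x : ConjClasses G, (1 : ℚ) / (n x : ℚ) = 1
    have hG : (Nat.card G : ℚ) ≠ 0 := Nat.cast_ne_zero.mpr Nat.card_pos.ne'
    have h1 : ∀ x : ConjClasses G, (1 : ℚ) / (n x : ℚ) = (x.carrier.toFinset.card : ℚ) / Nat.card G := by
      intro x
      have hx : (n x : ℚ) ≠ 0 := Nat.cast_ne_zero.mpr (hn0 x).ne'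
      field_simp
      rw [mul_comm]
      exact_mod_cast (hn x).symm
    simp only [h1, ← Finset.sum_div, ← Nat.cast_sum]
    rw [show (∑ x : ConjClasses G, x.carrier.toFinset.card) = Nat.card G by
      rw [Nat.card_eq_fintype_card]; exact sum_conjClasses_card_eq_card G, div_self hG]
  have h1 := hB _ (by rwa [Multiset.card_map, ← Finset.card_def, Finset.card_univ,
    ← Nat.card_eq_fintype_card]) (fun m hm => by
      obtain ⟨x, -, rfl⟩ := Multiset.mem_map.mp hm
      exact hn0 x) hsum (n (ConjClasses.mk 1)) (Multiset.mem_map.mpr ⟨_, Finset.mem_univ _, rfl⟩)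
  refine le_trans (le_of_eq ?_) h1
  rw [← hn (ConjClasses.mk 1)]
  have : (ConjClasses.mk (1 : G)).carrier.toFinset = {1} := by
    ext y
    rw [Set.mem_toFinset, ConjClasses.mem_carrier_iff_mk_eq, ConjClasses.mk_eq_mk_iff_isConj,
      isConj_comm, isConj_one_right, Finset.mem_singleton]
  rw [this, Finset.card_singleton, one_mul]

end Cfsg.Agent.BlocksChar
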