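import Cfsg.Agent.BlocksChar.PairKernel

/-!
# `π'`-cores in the kernel of the Brauer correspondent
-/

set_option autoImplicit false
set_option linter.style.haveILetI false
set_option linter.unusedSectionVars false

namespace Cfsg.Agent.BlocksChar

open Cfsg Cfsg.Agent.BrauerPairs MonoidAlgebra

set_option maxHeartbeats 400000

universe u

variable {G : Type u} [Group G] [Finite G] {p : ℕ} [Fact p.Prime] {M : Ideal AlgInt} [M.IsPrime]
  [CharP (Block.ResF M) p] {π : Set ℕ}

theorem mem_piCoreOf_coe {H : Subgroup G} (h : H) :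
    (h : G) ∈ Cfsg.piCoreOf {q | q ∉ π} H ↔ h ∈ Cfsg.piCore {q | q ∉ π} H :=
  Subgroup.mem_map_iff_mem H.subtype_injective

/-- The kernel condition for the core of a subgroup, in terms of central characters. -/
theorem lam_avgF_piCoreOf_iff (hM : IsPModular p M) (hπ : p ∈ π) (H : Subgroup G) (b : Blk M H) :
    (blockSys M H).lam b (avgF M (Cfsg.piCoreOf {q | q ∉ π} H)) = 1 ↔
      ∀ n : H, n ∈ Cfsg.piCore {q | q ∉ π} H → n ∈ Cfsg.blockKer b.1 := by
  rw [lam_avgF_eq_one_iff hM (OddLocal.piCoreOf_le _ _) (OddLocal.le_normalizer_piCoreOf _ _)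
    (not_dvd_of_isPi hπ (OddLocal.isPi_piCoreOf _ _)) b]
  exact ⟨fun h n hn χ hχ => h χ hχ n ((mem_piCoreOf_coe n).2 hn),
    fun h χ hχ n hn => h n ((mem_piCoreOf_coe n).1 hn) χ hχ⟩

/-- The core of `N(D)` is trivial on the correspondent iff that of `C(D)` is trivial on its pair. -/
theorem trivCore_correspondent_iff (hM : IsPModular p M) (hπ : p ∈ π) {D : Subgroup G}
    (hD : IsPGroup p D) (B₁ : Blk M (Subgroup.normalizer (D : Set G)))
    {e : Blk M (Subgroup.centralizer (D : Set G))}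
    (he : (pairSys M G D).lam e
      (trunc D ((blockSys M (Subgroup.normalizer (D : Set G))).idem B₁)) = 1) :
    TrivCore M π (⟨D, e⟩ : PairIdx M G) ↔
      ∀ n : Subgroup.normalizer (D : Set G),
        n ∈ Cfsg.piCore {q | q ∉ π} (Subgroup.normalizer (D : Set G)) → n ∈ Cfsg.blockKer B₁.1 := by
  have hKp : ¬ p ∣ Nat.card (Cfsg.piCoreOf {q | q ∉ π} (Subgroup.normalizer (D : Set G))) :=
    not_dvd_of_isPi hπ (OddLocal.isPi_piCoreOf _ _)
  have hKC := piCoreOf_normalizer_le_centralizer (G := G) hπ hD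
  have hCN : Subgroup.centralizer (D : Set G) ≤ Subgroup.normalizer
      (Cfsg.piCoreOf {q | q ∉ π} (Subgroup.normalizer (D : Set G)) : Set G) :=
    (Subgroup.centralizer_le_normalizer _).trans (OddLocal.le_normalizer_piCoreOf _ _)
  have h1 := lam_avgF_pair hD Subgroup.le_normalizer (Subgroup.centralizer_le_normalizer _) B₁ he
    (OddLocal.piCoreOf_le _ _) (OddLocal.le_normalizer_piCoreOf _ _) hKp
  rw [inf_eq_left.2 hKC] at h1
  refine Iff.trans ?_ (lam_avgF_piCoreOf_iff hM hπ _ B₁)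
  rw [← h1]
  unfold TrivCore
  exact ⟨fun h => lam_avgF_mono (pairSys M G D) e
      (OddLocal.le_piCoreOf hKC hCN (OddLocal.isPi_piCoreOf _ _))
      (coreC_le D) (centralizer_le_normalizer_coreC D) hCN (not_dvd_coreC hπ D) h,
    fun h => lam_avgF_mono (pairSys M G D) e (coreC_le_piCoreOf_normalizer D) hKC hCN
      (centralizer_le_normalizer_coreC D) hKp h⟩

/-- A block inducing `B` from a subgroup containing a centraliser inherits the kernel condition. -/
theorem kernel_descends (hM : IsPModular p M) (hπ : p ∈ π) {D : Subgroup G} (B : Blk M G)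
    (hBD : IsDefectGroup p M B.1 D) (B₁ : Blk M (Subgroup.normalizer (D : Set G)))
    (hB₁ : IsInducedBlock M (Subgroup.normalizer (D : Set G)) B₁.1 B.1)
    (hB₁D : IsDefectGroup p M B₁.1 (D.subgroupOf (Subgroup.normalizer (D : Set G))))
    (hker : ∀ n : Subgroup.normalizer (D : Set G),
        n ∈ Cfsg.piCore {q | q ∉ π} (Subgroup.normalizer (D : Set G)) → n ∈ Cfsg.blockKer B₁.1)
    (a : PairIdx M G) (ha : PairOf (blockSysTop M) (pairSys M G) p B a) : TrivCore M π a := by
  obtain ⟨e, he, hmax⟩ := exists_maxPair_correspondent hM B hBD B₁ hB₁ hB₁D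
  have hD : TrivCore M π (⟨D, e⟩ : PairIdx M G) :=
    (trivCore_correspondent_iff hM hπ hmax.1.1 B₁ he).2 hker
  obtain ⟨x, b, hrel, hle⟩ := hmax.exists_conj_sle ha
  exact (trivCore_cjRel hrel).1 (hD.of_sle hπ hle)

end Cfsg.Agent.BlocksChar
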