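import Cfsg.Agent.BrauerPairs.Local
import Cfsg.Agent.Block.Induced

/-!
# Block induction from subgroups containing the centraliser of a Brauer pair
-/

set_option autoImplicit false
set_option linter.style.haveILetI false
set_option linter.unusedSectionVars false

namespace Cfsg.Agent.BlocksChar

open Cfsg Cfsg.Agent.BrauerPairs MonoidAlgebra

universe u

variable {G : Type u} [Group G] [Finite G] {p : ℕ} [Fact p.Prime] {M : Ideal AlgInt} [M.IsPrime]
  [CharP (Block.ResF M) p]

/-- Central characters of a block factor through the Brauer map at any of its pairs. -/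
theorem lam_trunc_eq {H P : Subgroup G} {κ ι : Type*} [Fintype κ] [Fintype ι]
    (S : BlockSys (Block.ResF M) H κ)
    (T : BlockSys (Block.ResF M) (Subgroup.centralizer (P : Set G)) ι)
    (hP : IsPGroup p P) (hPH : P ≤ H) (hCH : Subgroup.centralizer (P : Set G) ≤ H) {i : κ} {e : ι}
    (hie : T.lam e (trunc P (S.idem i)) = 1) {a : MonoidAlgebra (Block.ResF M) G}
    (ha : CentralIn H a) : T.lam e (trunc P a) = S.lam i a := by
  have hcen : ∀ {z : MonoidAlgebra (Block.ResF M) G}, CentralIn H z →
      CentralIn (Subgroup.centralizer (P : Set G)) (trunc P z) := fun {z} hz =>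
    ⟨suppIn_trunc _ _, (hz.fixed.mono hCH).trunc (Subgroup.centralizer_le_normalizer _)⟩
  have hi := S.central_idem i
  have hb : CentralIn H (a - S.lam i a • (1 : MonoidAlgebra (Block.ResF M) G)) :=
    ha.sub (CentralIn.one.smul _)
  obtain ⟨n, hn⟩ := S.isNilpotent_sub_lam i ha
  have h0 : T.lam e (trunc P (S.idem i * (a - S.lam i a • 1))) ^ n = 0 := by
    have hpow : ∀ m : ℕ, T.lam e (trunc P ((S.idem i * (a - S.lam i a • 1)) ^ m)) =
        T.lam e (trunc P (S.idem i * (a - S.lam i a • 1))) ^ m := by
      intro m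
      induction m with
      | zero => simp [trunc_one, T.lam_one]
      | succ m ih =>
        rw [pow_succ, pow_succ, trunc_mul hP ((((hi.mul hb).pow m).fixed).mono hPH)
          (((hi.mul hb).fixed).mono hPH), T.lam_mul e _ _ (hcen ((hi.mul hb).pow m))
          (hcen (hi.mul hb)), ih]
    rw [← hpow, hn, map_zero, T.lam_zero]
  have h1 := (pow_eq_zero_iff' .. |>.1 h0).1
  rw [trunc_mul hP (hi.fixed.mono hPH) (hb.fixed.mono hPH), T.lam_mul e _ _ (hcen hi) (hcen hb),
    hie, one_mul, map_sub, T.lam_sub e (hcen ha) (hcen (CentralIn.one.smul _))] at h1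
  have h2 : trunc P (S.lam i a • (1 : MonoidAlgebra (Block.ResF M) G)) = S.lam i a • 1 := by
    refine trunc_eq_self_iff.2 fun g hg => ?_
    simp [suppIn_one _ g hg]
  rw [h2, T.lam_smul e _ _ CentralIn.one, T.lam_one, mul_one, sub_eq_zero] at h1
  exact h1

/-- A block of `H` with a pair `(P, e)`, `C_G(P) ≤ H`, induces the block of `G` of that pair. -/
theorem isInducedBlock_of_pairOf {H P : Subgroup G} (hP : IsPGroup p P) (hPH : P ≤ H)
    (hCH : Subgroup.centralizer (P : Set G) ≤ H) (b : Blk M H) (B : Blk M G)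
    {e : Blk M (Subgroup.centralizer (P : Set G))}
    (hbe : (pairSys M G P).lam e (trunc P ((blockSys M H).idem b)) = 1)
    (hBe : PairOf (blockSysTop M) (pairSys M G) p B ⟨P, e⟩) :
    IsInducedBlock M H b.1 B.1 := by
  letI := Fintype.ofFinite G
  letI := Fintype.ofFinite H
  refine Block.isInducedBlock_of_lam_restr b.2 B.2 (blkChar_mem M b) (blkChar_mem M B) fun g => ?_
  set z := Block.classSum (Block.ResF M) g with hz
  have hzc : Block.IsCentralElt z := Block.classSum_isCentralElt g
  set a := Block.incl H (Block.restr H z) with ha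
  have hac : CentralIn H a := centralIn_incl M (hzc.restr H)
  have e1 : trunc P a = trunc P z := by
    apply Block.groupAlgebra_ext
    intro x
    by_cases hx : x ∈ Subgroup.centralizer (P : Set G)
    · rw [coeff_trunc_mem _ hx, coeff_trunc_mem _ hx, ha]
      exact (Block.coeff_incl_coe H _ ⟨x, hCH hx⟩).trans (Block.coeff_restr H z ⟨x, hCH hx⟩)
    · rw [coeff_trunc_notMem _ hx, coeff_trunc_notMem _ hx]
  have e2 : (blockSys M H).lam b a = Block.lam M (blkChar M b : H → ℂ) (Block.restr H z) := by
    show Block.lam M _ (Block.restr H a) = _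
    rw [ha, Block.restr_incl]
  rw [← e2, ← lam_trunc_eq (blockSys M H) (pairSys M G P) hP hPH hCH hbe hac, e1,
    lam_trunc_eq (blockSysTop M) (pairSys M G P) hP le_top le_top hBe.2
      (centralIn_top_of_isCentralElt hzc)]
  rfl

/-- The defect groups of a block of `C(P)` over a block with defect group `P` lie in `P`. -/
theorem le_of_trunc_pair_ne_zero {H P : Subgroup G} {κ : Type*} [Fintype κ]
    (S : BlockSys (Block.ResF M) H κ) (hP : IsPGroup p P)
    (hCH : Subgroup.centralizer (P : Set G) ≤ H) {i : κ} (hD : IsDefIn p H (S.idem i) P)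
    {e : Blk M (Subgroup.centralizer (P : Set G))}
    (hie : (pairSys M G P).lam e (trunc P (S.idem i)) = 1) {R : Subgroup G}
    (hR : R ≤ Subgroup.centralizer (P : Set G)) (hRp : IsPGroup p R)
    (hne : trunc R ((pairSys M G P).idem e) ≠ 0) : R ≤ P := by
  have hPH := hD.1
  have hi := S.central_idem i
  have hcen : CentralIn (Subgroup.centralizer (P : Set G)) (trunc P (S.idem i)) :=
    ⟨suppIn_trunc _ _, (hi.fixed.mono hCH).trunc (Subgroup.centralizer_le_normalizer _)⟩
  have hmul : trunc P (S.idem i) * (pairSys M G P).idem e = (pairSys M G P).idem e :=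
    (pairSys M G P).mul_idem_eq_of_lam_one hcen
      (by rw [← trunc_mul hP (hi.fixed.mono hPH) (hi.fixed.mono hPH), S.idem_mul_self]) hie
  have hRne : trunc (P ⊔ R) (S.idem i) ≠ 0 := by
    intro h0
    apply hne
    have e0 : trunc R (trunc P (S.idem i)) = trunc (P ⊔ R) (S.idem i) := by
      apply Block.groupAlgebra_ext
      intro x
      have hsup : x ∈ Subgroup.centralizer ((P ⊔ R : Subgroup G) : Set G) ↔
          x ∈ Subgroup.centralizer (P : Set G) ∧ x ∈ Subgroup.centralizer (R : Set G) := by
        refine ⟨fun h => ⟨centralizer_anti le_sup_left h, centralizer_anti le_sup_right h⟩,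
          fun h => ?_⟩
        rw [Subgroup.mem_centralizer_iff]
        intro y hy
        have hsub : P ⊔ R ≤ Subgroup.centralizer ({x} : Set G) := sup_le
          (fun z hz => Subgroup.mem_centralizer_singleton_iff.2 (h.1 z hz))
          (fun z hz => Subgroup.mem_centralizer_singleton_iff.2 (h.2 z hz))
        exact Subgroup.mem_centralizer_singleton_iff.1 (hsub hy)
      by_cases hR' : x ∈ Subgroup.centralizer (R : Set G)
      · by_cases hP' : x ∈ Subgroup.centralizer (P : Set G)
        · rw [coeff_trunc_mem _ hR', coeff_trunc_mem _ hP', coeff_trunc_mem _ (hsup.2 ⟨hP', hR'⟩)]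
        · rw [coeff_trunc_mem _ hR', coeff_trunc_notMem _ hP',
            coeff_trunc_notMem _ fun h => hP' (hsup.1 h).1]
      · rw [coeff_trunc_notMem _ hR', coeff_trunc_notMem _ fun h => hR' (hsup.1 h).2]
    rw [← hmul, trunc_mul hRp (hcen.fixed.mono hR)
      (((pairSys M G P).central_idem e).fixed.mono hR), e0, h0, zero_mul]
  have hsupp : IsPGroup p (P ⊔ R : Subgroup G) :=
    hP.to_sup_of_normal_left' hRp (hR.trans (Subgroup.centralizer_le_normalizer _))
  have hcard := hD.card_le (sup_le hPH (hR.trans hCH)) hsupp hRne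
  have := Subgroup.eq_of_le_of_card_ge (le_sup_left : P ≤ P ⊔ R) hcard
  exact this ▸ (le_sup_right : R ≤ P ⊔ R)

end Cfsg.Agent.BlocksChar
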