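import Cfsg.Agent.BlocksChar.PairInduction
import Cfsg.Agent.Brauer.Kernel
import Cfsg.Agent.Brauer.Inflation
import Cfsg.Agent.OddLocal.MinSimple

/-!
# Normal `π'`-subgroups in the kernels of Brauer pairs
-/

set_option autoImplicit false
set_option linter.style.haveILetI false
set_option linter.unusedSectionVars false

namespace Cfsg.Agent.BlocksChar

open Cfsg Cfsg.Agent.BrauerPairs MonoidAlgebra

universe u

variable {G : Type u} [Group G] [Finite G] {p : ℕ} [Fact p.Prime] {M : Ideal AlgInt} [M.IsPrime]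
  [CharP (Block.ResF M) p]

open scoped Classical in
/-- The average of a subgroup in the group algebra over the residue field. -/
noncomputable def avgF (M : Ideal AlgInt) [M.IsPrime] (K : Subgroup G) :
    MonoidAlgebra (Block.ResF M) G :=
  ofFun fun g => if g ∈ K then ((Nat.card K : ℕ) : Block.ResF M)⁻¹ else 0

theorem natCast_card_ne_zero {K : Subgroup G} (hK : ¬ p ∣ Nat.card K) :
    ((Nat.card K : ℕ) : Block.ResF M) ≠ 0 := fun h =>
  hK ((CharP.cast_eq_zero_iff (Block.ResF M) p _).1 h)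

theorem coeff_avgF_mem {K : Subgroup G} {g : G} (hg : g ∈ K) :
    (avgF M K).coeff g = ((Nat.card K : ℕ) : Block.ResF M)⁻¹ := by
  simp [avgF, hg]

theorem coeff_avgF_notMem {K : Subgroup G} {g : G} (hg : g ∉ K) : (avgF M K).coeff g = 0 := by
  simp [avgF, hg]

theorem avgF_mul_of_le {K L : Subgroup G} (h : L ≤ K) (hL : ¬ p ∣ Nat.card L) :
    avgF M K * avgF M L = avgF M K := by
  classical
  letI := Fintype.ofFinite G
  refine Block.groupAlgebra_ext fun g => ?_
  rw [BrauerPairs.coeff_mul_sum]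
  have key : ∀ x : G, (avgF M K).coeff x * (avgF M L).coeff (x⁻¹ * g) =
      if x⁻¹ * g ∈ L then (avgF M K).coeff g * ((Nat.card L : ℕ) : Block.ResF M)⁻¹ else 0 := by
    intro x
    by_cases hx : x⁻¹ * g ∈ L
    · rw [if_pos hx, coeff_avgF_mem hx]
      congr 1
      by_cases hxK : x ∈ K
      · have hg : g ∈ K := by
          have := K.mul_mem hxK (h hx)
          rwa [mul_inv_cancel_left] at this
        rw [coeff_avgF_mem hxK, coeff_avgF_mem hg]
      · have hg : g ∉ K := fun hg => hxK (by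
          have := K.mul_mem hg (K.inv_mem (h hx))
          simpa [mul_assoc] using this)
        rw [coeff_avgF_notMem hxK, coeff_avgF_notMem hg]
    · rw [if_neg hx, coeff_avgF_notMem hx, mul_zero]
  rw [Finset.sum_congr rfl fun x _ => key x, ← Finset.sum_filter, Finset.sum_const, nsmul_eq_mul]
  have hc : (Finset.univ.filter fun x : G => x⁻¹ * g ∈ L).card = Nat.card L := by
    rw [← Nat.card_eq_finsetCard]
    refine Nat.card_congr ((Equiv.subtypeEquivRight (q := fun x : G => x⁻¹ * g ∈ L) (by simp)).trans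
      ((((Equiv.inv G).trans (Equiv.mulRight g))).subtypeEquiv fun x => ?_))
    simp
  rw [hc, mul_left_comm, mul_inv_cancel₀ (natCast_card_ne_zero hL), mul_one]

theorem avgF_mul_self {K : Subgroup G} (hK : ¬ p ∣ Nat.card K) :
    avgF M K * avgF M K = avgF M K := avgF_mul_of_le le_rfl hK

theorem centralIn_avgF {K H : Subgroup G} (hKH : K ≤ H)
    (hHN : H ≤ Subgroup.normalizer (K : Set G)) : CentralIn H (avgF M K) := by
  refine ⟨fun g hg => coeff_avgF_notMem fun hk => hg (hKH hk), fun h hh g => ?_⟩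
  have hiff := Subgroup.mem_normalizer_iff.1 (hHN hh) g
  by_cases hg : g ∈ K
  · rw [coeff_avgF_mem (hiff.1 hg), coeff_avgF_mem hg]
  · rw [coeff_avgF_notMem (fun hc => hg (hiff.2 hc)), coeff_avgF_notMem hg]

theorem fixed_avgF {K H : Subgroup G} (hHN : H ≤ Subgroup.normalizer (K : Set G)) :
    Fixed H (avgF M K) := by
  intro h hh g
  have hiff := Subgroup.mem_normalizer_iff.1 (hHN hh) g
  by_cases hg : g ∈ K
  · rw [coeff_avgF_mem (hiff.1 hg), coeff_avgF_mem hg]
  · rw [coeff_avgF_notMem (fun hc => hg (hiff.2 hc)), coeff_avgF_notMem hg]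

theorem aug_avgF {K : Subgroup G} (hK : ¬ p ∣ Nat.card K) : aug (avgF M K) = 1 := by
  classical
  letI := Fintype.ofFinite G
  rw [aug_eq_sum]
  simp only [avgF, coeff_ofFun]
  rw [← Finset.sum_filter, Finset.sum_const, nsmul_eq_mul]
  have hc : (Finset.univ.filter fun x : G => x ∈ K).card = Nat.card K := by
    rw [Nat.card_eq_fintype_card, Fintype.card_subtype]
  rw [hc, mul_inv_cancel₀ (natCast_card_ne_zero hK)]

theorem trunc_avgF {K P : Subgroup G} (hP : IsPGroup p P) (hK : ¬ p ∣ Nat.card K)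
    (hPN : P ≤ Subgroup.normalizer (K : Set G)) :
    trunc P (avgF M K) = avgF M (K ⊓ Subgroup.centralizer (P : Set G)) := by
  classical
  letI := Fintype.ofFinite G
  set L := K ⊓ Subgroup.centralizer (P : Set G) with hL
  have hLd : ¬ p ∣ Nat.card L := fun hd => hK (hd.trans (Subgroup.card_dvd_of_le inf_le_left))
  have hco : ∀ g, (trunc P (avgF M K)).coeff g =
      if g ∈ L then ((Nat.card K : ℕ) : Block.ResF M)⁻¹ else 0 := by
    intro g
    by_cases hg : g ∈ Subgroup.centralizer (P : Set G)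
    · rw [coeff_trunc_mem _ hg]
      by_cases hk : g ∈ K
      · rw [coeff_avgF_mem hk, if_pos ⟨hk, hg⟩]
      · rw [coeff_avgF_notMem hk, if_neg fun hc => hk hc.1]
    · rw [coeff_trunc_notMem _ hg, if_neg fun hc => hg hc.2]
  have h1 := aug_trunc hP (fixed_avgF (M := M) hPN)
  rw [aug_avgF hK, aug_eq_sum] at h1
  simp only [hco] at h1
  rw [← Finset.sum_filter, Finset.sum_const, nsmul_eq_mul] at h1
  have hc : (Finset.univ.filter fun x : G => x ∈ L).card = Nat.card L := by
    rw [Nat.card_eq_fintype_card, Fintype.card_subtype]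
  rw [hc] at h1
  have he : ((Nat.card K : ℕ) : Block.ResF M)⁻¹ = ((Nat.card L : ℕ) : Block.ResF M)⁻¹ :=
    eq_inv_of_mul_eq_one_right h1
  refine Block.groupAlgebra_ext fun g => ?_
  rw [hco]
  by_cases hg : g ∈ L
  · rw [if_pos hg, coeff_avgF_mem hg, he]
  · rw [if_neg hg, coeff_avgF_notMem hg]

theorem cj_avgF (x : G) (K : Subgroup G) :
    cj x (avgF M K) = avgF M (K.map (MulAut.conj x).toMonoidHom) := by
  refine Block.groupAlgebra_ext fun g => ?_
  rw [coeff_cj]
  have hc : Nat.card (K.map (MulAut.conj x).toMonoidHom) = Nat.card K :=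
    Subgroup.card_map_of_injective (MulAut.conj x).injective
  by_cases hg : x⁻¹ * g * x ∈ K
  · rw [coeff_avgF_mem hg, coeff_avgF_mem (mem_map_conj_iff.2 hg), hc]
  · rw [coeff_avgF_notMem hg, coeff_avgF_notMem fun h => hg (mem_map_conj_iff.1 h)]

theorem lam_avgF_cases {H : Subgroup G} {κ : Type*} [Fintype κ]
    (S : BlockSys (Block.ResF M) H κ) (i : κ) {K : Subgroup G} (hKH : K ≤ H)
    (hHN : H ≤ Subgroup.normalizer (K : Set G)) (hK : ¬ p ∣ Nat.card K) :
    S.lam i (avgF M K) = 0 ∨ S.lam i (avgF M K) = 1 :=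
  (S.mul_idem_cases i (centralIn_avgF hKH hHN) (avgF_mul_self hK)).imp And.left And.left

theorem lam_avgF_mono {H : Subgroup G} {κ : Type*} [Fintype κ]
    (S : BlockSys (Block.ResF M) H κ) (i : κ) {K L : Subgroup G} (hLK : L ≤ K) (hKH : K ≤ H)
    (hHN : H ≤ Subgroup.normalizer (K : Set G)) (hHN' : H ≤ Subgroup.normalizer (L : Set G))
    (hK : ¬ p ∣ Nat.card K) (h1 : S.lam i (avgF M K) = 1) : S.lam i (avgF M L) = 1 := by
  have hL : ¬ p ∣ Nat.card L := fun hd => hK (hd.trans (Subgroup.card_dvd_of_le hLK))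
  have h := S.lam_mul i _ _ (centralIn_avgF (M := M) hKH hHN)
    (centralIn_avgF (M := M) (hLK.trans hKH) hHN')
  rw [avgF_mul_of_le hLK hL, h1, one_mul] at h
  exact h.symm

/-- Triviality on a normal `p'`-subgroup passes along normal inclusions of pairs. -/
theorem lam_avgF_nsub {a b : PairIdx M G} (h : NSub (pairSys M G) p a b) {L : Subgroup G}
    (hL : L ≤ Subgroup.centralizer (a.1 : Set G))
    (hCN : Subgroup.centralizer (a.1 : Set G) ≤ Subgroup.normalizer (L : Set G))
    (hbN : b.1 ≤ Subgroup.normalizer (L : Set G)) (hLp : ¬ p ∣ Nat.card L) :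
    (pairSys M G b.1).lam b.2 (avgF M (L ⊓ Subgroup.centralizer (b.1 : Set G))) = 1 ↔
      (pairSys M G a.1).lam a.2 (avgF M L) = 1 := by
  obtain ⟨hp, hab, -, hfix, hlam⟩ := h
  set S := pairSys M G a.1 with hS
  set T := pairSys M G b.1 with hT
  have hle : Subgroup.centralizer (b.1 : Set G) ≤ Subgroup.centralizer (a.1 : Set G) :=
    centralizer_anti hab
  have hc1 : CentralIn (Subgroup.centralizer (b.1 : Set G)) (trunc b.1 (S.idem a.2)) :=
    ⟨suppIn_trunc _ _, ((S.central_idem a.2).fixed.mono hle).trunc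
      (Subgroup.centralizer_le_normalizer _)⟩
  have hc2 : CentralIn (Subgroup.centralizer (b.1 : Set G)) (trunc b.1 (avgF M L)) :=
    ⟨suppIn_trunc _ _, (fixed_avgF (hle.trans hCN)).trunc
      (Subgroup.centralizer_le_normalizer _)⟩
  have hmul := T.lam_mul b.2 _ _ hc1 hc2
  rw [← trunc_mul hp hfix (fixed_avgF hbN), hlam, one_mul, trunc_avgF hp hLp hbN] at hmul
  rw [← hmul]
  rcases S.mul_idem_cases a.2 (centralIn_avgF (M := M) hL hCN) (avgF_mul_self hLp) with
    ⟨h0, h0'⟩ | ⟨h1, h1'⟩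
  · rw [← (CentralIn.commute (centralIn_avgF (M := M) hL hCN).fixed (S.central_idem a.2).supp).eq,
      h0', map_zero, T.lam_zero, h0]
  · rw [← (CentralIn.commute (centralIn_avgF (M := M) hL hCN).fixed (S.central_idem a.2).supp).eq,
      h1', hlam, h1]

/-! ### The `π'`-core of the centraliser -/

variable {π : Set ℕ}

/-- `O_{π'}(C_G(Q))`. -/
def coreC (π : Set ℕ) (Q : Subgroup G) : Subgroup G :=
  Cfsg.piCoreOf {q | q ∉ π} (Subgroup.centralizer (Q : Set G))

theorem not_dvd_of_isPi (hπ : p ∈ π) {K : Subgroup G} (h : OddLocal.IsPi {q | q ∉ π} K) :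
    ¬ p ∣ Nat.card K := fun hd => h p Fact.out hd hπ

theorem not_dvd_coreC (hπ : p ∈ π) (Q : Subgroup G) : ¬ p ∣ Nat.card (coreC π Q) :=
  not_dvd_of_isPi hπ (OddLocal.isPi_piCoreOf _ _)

theorem coreC_le (Q : Subgroup G) : coreC π Q ≤ Subgroup.centralizer (Q : Set G) :=
  OddLocal.piCoreOf_le _ _

theorem centralizer_le_normalizer_coreC (Q : Subgroup G) :
    Subgroup.centralizer (Q : Set G) ≤ Subgroup.normalizer (coreC π Q : Set G) :=
  OddLocal.le_normalizer_piCoreOf _ _

theorem normalizer_le_normalizer_coreC (Q : Subgroup G) :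
    Subgroup.normalizer (Q : Set G) ≤ Subgroup.normalizer (coreC π Q : Set G) :=
  (normalizer_le_normalizer_centralizer Q).trans
    (OddLocal.normalizer_le_normalizer_piCoreOf _ _)

theorem inf_coreC_le {Q R : Subgroup G} (h : Q ≤ R) :
    coreC π Q ⊓ Subgroup.centralizer (R : Set G) ≤ coreC π R := by
  refine OddLocal.le_piCoreOf inf_le_right ?_ fun q hq hd =>
    OddLocal.isPi_piCoreOf {q | q ∉ π} (Subgroup.centralizer (Q : Set G)) q hq
      (hd.trans (Subgroup.card_dvd_of_le inf_le_left))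
  intro g hg
  rw [Subgroup.mem_normalizer_iff]
  intro y
  have h1 := Subgroup.mem_normalizer_iff.1
    (centralizer_le_normalizer_coreC (π := π) Q (centralizer_anti h hg)) y
  have h2 := Subgroup.mem_normalizer_iff.1 (Subgroup.le_normalizer hg) y
  exact and_congr h1 h2

variable (M π) in
/-- The pair is trivial on `O_{π'}` of its centraliser. -/
def TrivCore (a : PairIdx M G) : Prop := (pairSys M G a.1).lam a.2 (avgF M (coreC π a.1)) = 1

theorem TrivCore.down {a b : PairIdx M G} (hπ : p ∈ π) (h : NSub (pairSys M G) p a b)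
    (hb : TrivCore M π b) : TrivCore M π a := by
  have hle : coreC π a.1 ⊓ Subgroup.centralizer (b.1 : Set G) ≤ coreC π b.1 := inf_coreC_le h.2.1
  have hN : Subgroup.centralizer (b.1 : Set G) ≤
      Subgroup.normalizer ((coreC π a.1 ⊓ Subgroup.centralizer (b.1 : Set G) : Subgroup G) : Set G) := by
    intro g hg
    rw [Subgroup.mem_normalizer_iff]
    intro y
    exact and_congr (Subgroup.mem_normalizer_iff.1
      (centralizer_le_normalizer_coreC (π := π) a.1 (centralizer_anti h.2.1 hg)) y)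
      (Subgroup.mem_normalizer_iff.1 (Subgroup.le_normalizer hg) y)
  exact (lam_avgF_nsub h (coreC_le a.1) (centralizer_le_normalizer_coreC a.1)
    (h.2.2.1.trans (normalizer_le_normalizer_coreC a.1)) (not_dvd_coreC hπ _)).1
      (lam_avgF_mono _ _ hle (coreC_le b.1) (centralizer_le_normalizer_coreC b.1) hN
        (not_dvd_coreC hπ _) hb)

theorem TrivCore.of_sle {a b : PairIdx M G} (hπ : p ∈ π) (h : SLE (pairSys M G) p a b)
    (hb : TrivCore M π b) : TrivCore M π a := by
  induction h with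
  | refl => exact hb
  | tail _ h ih => exact ih (hb.down hπ h)

theorem coreC_cjRel {x : G} {a b : PairIdx M G} (h : CjRel (pairSys M G) x a b) :
    coreC π b.1 = (coreC π a.1).map (MulAut.conj x).toMonoidHom := by
  rw [coreC, coreC, ← centralizer_cjRel h]
  exact OddLocal.piCoreOf_conjBy _ x _

theorem trivCore_cjRel {x : G} {a b : PairIdx M G} (h : CjRel (pairSys M G) x a b) :
    TrivCore M π b ↔ TrivCore M π a := by
  rw [TrivCore, TrivCore, coreC_cjRel h, ← cj_avgF,
    (pairSys M G a.1).lam_cj (pairSys M G b.1) x (centralizer_cjRel h) h.2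
      (centralIn_avgF (coreC_le a.1) (centralizer_le_normalizer_coreC a.1))]

variable (π) in
/-- Every `π'`-element of `C_G(Q)` lies in its `π'`-core. -/
def HallCore (Q : Subgroup G) : Prop :=
  ∀ x ∈ Subgroup.centralizer (Q : Set G),
    (∀ q : ℕ, q.Prime → q ∣ orderOf x → q ∉ π) → x ∈ coreC π Q

theorem mem_coreC_order {Q : Subgroup G} {x : G} (hx : x ∈ coreC π Q) :
    ∀ q : ℕ, q.Prime → q ∣ orderOf x → q ∉ π := fun q hq hd =>
  OddLocal.isPi_piCoreOf {q | q ∉ π} (Subgroup.centralizer (Q : Set G)) q hq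
    (hd.trans (Subgroup.orderOf_dvd_natCard _ hx))

theorem HallCore.mono {Q R : Subgroup G} (h : HallCore π Q) (hle : Q ≤ R) : HallCore π R :=
  fun x hx ho => inf_coreC_le hle ⟨h x (centralizer_anti hle hx) ho, hx⟩

theorem HallCore.coreC_eq {Q R : Subgroup G} (h : HallCore π Q) (hle : Q ≤ R) :
    coreC π R = coreC π Q ⊓ Subgroup.centralizer (R : Set G) :=
  le_antisymm (fun x hx => ⟨h x (centralizer_anti hle (coreC_le R hx)) (mem_coreC_order hx),
    coreC_le R hx⟩) (inf_coreC_le hle)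

theorem TrivCore.up {a b : PairIdx M G} (hπ : p ∈ π) (h : SLE (pairSys M G) p a b)
    (hH : HallCore π a.1) (ha : TrivCore M π a) : TrivCore M π b := by
  induction h with
  | refl => exact ha
  | @tail c d h1 h2 ih =>
    have hc := hH.mono (SLE.le h1)
    rw [TrivCore, hc.coreC_eq h2.2.1]
    exact (lam_avgF_nsub h2 (coreC_le c.1) (centralizer_le_normalizer_coreC c.1)
      (h2.2.2.1.trans (normalizer_le_normalizer_coreC c.1)) (not_dvd_coreC hπ _)).2 ih

theorem HallCore.cjRel {x : G} {a b : PairIdx M G} (h : CjRel (pairSys M G) x a b)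
    (hH : HallCore π a.1) : HallCore π b.1 := by
  intro y hy ho
  rw [coreC_cjRel h, mem_map_conj_iff]
  rw [← centralizer_cjRel h, mem_map_conj_iff] at hy
  refine hH _ hy fun q hq hd => ho q hq ?_
  have e : orderOf (x⁻¹ * y * x) = orderOf y := by
    simpa using (MulAut.conj x⁻¹).orderOf_eq y
  rwa [e] at hd

/-! ### Kernels of blocks -/

theorem restr_avgF_eq_toF [Fintype G] (hM : IsPModular p M) {H K : Subgroup G} [Fintype H]
    (hKH : K ≤ H) (hK : ¬ p ∣ Nat.card (K.subgroupOf H)) :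
    Block.restr H (avgF M K) = Block.toF M (Brauer.avgElt hM (K.subgroupOf H) hK) := by
  have hc : Nat.card (K.subgroupOf H) = Nat.card K :=
    Nat.card_congr (Subgroup.subgroupOfEquivOfLe hKH).toEquiv
  refine Block.groupAlgebra_ext fun x => ?_
  rw [Block.coeff_restr, Block.coeff_mapR, Brauer.avgElt, Block.coeff_ofFn]
  by_cases hx : (x : G) ∈ K
  · rw [coeff_avgF_mem hx, if_pos (show x ∈ K.subgroupOf H from hx)]
    refine inv_eq_of_mul_eq_one_right ?_
    rw [← map_natCast (Block.red M), ← map_mul]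
    have h1 : ((Nat.card K : ℕ) : Block.localRing M) *
        ⟨(Nat.card (K.subgroupOf H) : ℂ)⁻¹, Block.memLocalRing_natCast_inv hM hK⟩ = 1 := by
      apply Subtype.ext
      simp only [Subring.coe_mul, Subring.coe_natCast, OneMemClass.coe_one, hc]
      exact mul_inv_cancel₀ (Nat.cast_ne_zero.2 Nat.card_pos.ne')
    rw [h1, map_one]
  · rw [coeff_avgF_notMem hx, if_neg (show x ∉ K.subgroupOf H from hx), map_zero]

theorem lam_avgF_eq_one_iff (hM : IsPModular p M) {H K : Subgroup G} (hKH : K ≤ H)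
    (hHN : H ≤ Subgroup.normalizer (K : Set G)) (hK : ¬ p ∣ Nat.card K) (b : Blk M H) :
    (blockSys M H).lam b (avgF M K) = 1 ↔
      ∀ χ ∈ b.1, ∀ h : H, (h : G) ∈ K → (χ : H → ℂ) h = (χ : H → ℂ) 1 := by
  classical
  letI := Fintype.ofFinite G
  letI := Fintype.ofFinite H
  haveI : (K.subgroupOf H).Normal := (Subgroup.normal_subgroupOf_iff_le_normalizer hKH).2 hHN
  have hK' : ¬ p ∣ Nat.card (K.subgroupOf H) := by
    rwa [Nat.card_congr (Subgroup.subgroupOfEquivOfLe hKH).toEquiv]
  set χ := blkChar M b with hχdef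
  have hχ : χ ∈ b.1 := blkChar_mem M b
  have hl : (blockSys M H).lam b (avgF M K) =
      Block.redC M ((Nat.card (K.subgroupOf H) : ℂ)⁻¹ *
        (∑ n ∈ Finset.univ.filter (· ∈ K.subgroupOf H), (χ : H → ℂ) n) / (χ : H → ℂ) 1) := by
    show Block.lam M (χ : H → ℂ) (Block.restr H (avgF M K)) = _
    rw [restr_avgF_eq_toF hM hKH hK', Block.lam_toF χ.2 (Brauer.isCentralElt_avgElt hM _ hK'),
      Brauer.omega_avgElt]
  constructor
  · intro h1 ψ hψ n hn
    have htriv : ∀ m ∈ K.subgroupOf H, (χ : H → ℂ) m = (χ : H → ℂ) 1 := by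
      by_contra hcon
      have hz := Brauer.sum_coset_eq_zero_of_not_trivialOn (K.subgroupOf H) χ hcon 1
      rw [hl, ← Finset.sum_subtype (Finset.univ.filter (· ∈ K.subgroupOf H)) (fun x => by simp)
        (fun x => (χ : H → ℂ) (1 * x))] at *
      simp only [one_mul] at hz
      rw [hz, mul_zero, zero_div, Block.redC_zero] at h1
      exact zero_ne_one h1
    exact Brauer.trivialOn_of_sameBlock hM (K.subgroupOf H) hK'
      (Block.pBlock_sameBlock b.2 hχ hψ) htriv n hn
  · intro h
    have hs : (∑ n ∈ Finset.univ.filter (· ∈ K.subgroupOf H), (χ : H → ℂ) n) =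
        ∑ n ∈ Finset.univ.filter (· ∈ K.subgroupOf H), (χ : H → ℂ) 1 :=
      Finset.sum_congr rfl fun n hn => h χ hχ n (Finset.mem_filter.1 hn).2
    rw [hl, hs, Finset.sum_const, nsmul_eq_mul]
    have hc : (Finset.univ.filter (· ∈ K.subgroupOf H)).card = Nat.card (K.subgroupOf H) := by
      rw [Nat.card_eq_fintype_card, Fintype.card_subtype]
    rw [hc, ← mul_assoc, inv_mul_cancel₀ (Nat.cast_ne_zero.2 Nat.card_pos.ne'), one_mul,
      div_self (Char.irr_one_ne_zero χ.2), Block.redC_one]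

/-- A block containing `C_G(P)` is trivial on `K` iff a pair below it is trivial on `C_K(P)`. -/
theorem lam_avgF_pair {H K P : Subgroup G} (hP : IsPGroup p P) (hPH : P ≤ H)
    (hCH : Subgroup.centralizer (P : Set G) ≤ H) (b : Blk M H)
    {e : Blk M (Subgroup.centralizer (P : Set G))}
    (hbe : (pairSys M G P).lam e (trunc P ((blockSys M H).idem b)) = 1) (hKH : K ≤ H)
    (hHN : H ≤ Subgroup.normalizer (K : Set G)) (hK : ¬ p ∣ Nat.card K) :
    (pairSys M G P).lam e (avgF M (K ⊓ Subgroup.centralizer (P : Set G))) =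
      (blockSys M H).lam b (avgF M K) := by
  rw [← lam_trunc_eq (blockSys M H) (pairSys M G P) hP hPH hCH hbe (centralIn_avgF hKH hHN),
    trunc_avgF hP hK (hPH.trans hHN)]

/-- A block of `H ⊇ P C_G(P)` with `Br_P` nonzero gives a pair of every block it induces. -/
theorem exists_pair_of_induced (hM : IsPModular p M) {H P : Subgroup G} (hP : IsPGroup p P)
    (hPH : P ≤ H) (hCH : Subgroup.centralizer (P : Set G) ≤ H) (b : Blk M H) (B : Blk M G)
    (hne : trunc P ((blockSys M H).idem b) ≠ 0) (hind : IsInducedBlock M H b.1 B.1) :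
    ∃ e, (pairSys M G P).lam e (trunc P ((blockSys M H).idem b)) = 1 ∧
      PairOf (blockSysTop M) (pairSys M G) p B ⟨P, e⟩ := by
  letI := Fintype.ofFinite G
  have hi := (blockSys M H).central_idem b
  obtain ⟨e, he⟩ := (pairSys M G P).exists_lam_one (a := trunc P ((blockSys M H).idem b))
    ⟨suppIn_trunc _ _, (hi.fixed.mono hCH).trunc (Subgroup.centralizer_le_normalizer _)⟩
    (by rw [← trunc_mul hP (hi.fixed.mono hPH) (hi.fixed.mono hPH), (blockSys M H).idem_mul_self])
    hne
  obtain ⟨B', hB', -⟩ := existsUnique_pairOf (blockSysTop M) (pairSys M G) (p := p) (a := ⟨P, e⟩) hP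
  have h' := isInducedBlock_of_pairOf hP hPH hCH b B' he hB'
  obtain rfl : B' = B := Subtype.ext (Block.isInducedBlock_unique h' hind)
  exact ⟨e, he, hB'⟩

/-- The pair below the Brauer correspondent is maximal. -/
theorem exists_maxPair_correspondent (hM : IsPModular p M) {D : Subgroup G} (B : Blk M G)
    (hBD : IsDefectGroup p M B.1 D) (B₁ : Blk M (Subgroup.normalizer (D : Set G)))
    (hB₁ : IsInducedBlock M (Subgroup.normalizer (D : Set G)) B₁.1 B.1)
    (hB₁D : IsDefectGroup p M B₁.1 (D.subgroupOf (Subgroup.normalizer (D : Set G)))) :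
    ∃ e, (pairSys M G D).lam e
        (trunc D ((blockSys M (Subgroup.normalizer (D : Set G))).idem B₁)) = 1 ∧
      MaxPair (blockSysTop M) (pairSys M G) p B ⟨D, e⟩ := by
  have hd := (isDefectGroup_subgroup_iff B₁ _).1 hB₁D
  rw [Subgroup.subgroupOf_map_subtype, inf_eq_left.2 Subgroup.le_normalizer] at hd
  obtain ⟨e, he, hpair⟩ := exists_pair_of_induced hM hd.2.1 hd.1
    (Subgroup.centralizer_le_normalizer _) B₁ B hd.2.2.1 hB₁
  refine ⟨e, he, hpair, fun c hc hle => ?_⟩
  have hdef := isDef_of_isDefectGroup (B := B) hBD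
  refine (Subgroup.eq_of_le_of_card_ge hle.le ?_).symm
  exact BrauerPairs.card_le_of_conjLE (hdef.conjLE hc.1 hc.trunc_ne_zero)

theorem coreC_le_piCoreOf_normalizer (D : Subgroup G) :
    coreC π D ≤ Cfsg.piCoreOf {q | q ∉ π} (Subgroup.normalizer (D : Set G)) :=
  OddLocal.le_piCoreOf ((coreC_le D).trans (Subgroup.centralizer_le_normalizer _))
    (normalizer_le_normalizer_coreC D) (OddLocal.isPi_piCoreOf _ _)

theorem piCoreOf_normalizer_le_centralizer (hπ : p ∈ π) {D : Subgroup G} (hD : IsPGroup p D) :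
    Cfsg.piCoreOf {q | q ∉ π} (Subgroup.normalizer (D : Set G)) ≤
      Subgroup.centralizer (D : Set G) := by
  intro k hk
  rw [Subgroup.mem_centralizer_iff]
  intro d hd
  set K := Cfsg.piCoreOf {q | q ∉ π} (Subgroup.normalizer (D : Set G))
  have hkN : k ∈ Subgroup.normalizer (D : Set G) := OddLocal.piCoreOf_le _ _ hk
  have hdN : d ∈ Subgroup.normalizer (D : Set G) := Subgroup.le_normalizer hd
  have h1 : k * d * k⁻¹ * d⁻¹ ∈ D :=
    D.mul_mem ((Subgroup.mem_normalizer_iff.1 hkN d).1 hd) (D.inv_mem hd)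
  have h2 : k * d * k⁻¹ * d⁻¹ ∈ K := by
    have := (Subgroup.mem_normalizer_iff.1 (OddLocal.le_normalizer_piCoreOf _ _ hdN) k⁻¹).1
      (K.inv_mem hk)
    have e : k * d * k⁻¹ * d⁻¹ = k * (d * k⁻¹ * d⁻¹) := by group
    rw [e]; exact K.mul_mem hk this
  have h3 : k * d * k⁻¹ * d⁻¹ = 1 := by
    obtain ⟨i, hi⟩ := IsPGroup.iff_orderOf.1 hD ⟨_, h1⟩
    rw [Subgroup.orderOf_mk] at hi
    rcases Nat.eq_zero_or_pos i with h0 | h0
    · exact orderOf_eq_one_iff.1 (by rw [hi, h0, pow_zero])
    · exact absurd ((hi ▸ dvd_pow_self p h0.ne').trans (Subgroup.orderOf_dvd_natCard _ h2))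
        (not_dvd_of_isPi hπ (OddLocal.isPi_piCoreOf _ _))
  calc d * k = (k * d * k⁻¹ * d⁻¹)⁻¹ * (k * d) := by group
    _ = k * d := by rw [h3, inv_one, one_mul]

end Cfsg.Agent.BlocksChar
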