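import Cfsg.Agent.Brauer.RegElement
import Cfsg.Agent.BlkChar.GalAvg
import Cfsg.Agent.CharDeep.Section
import Cfsg.Agent.BlocksChar.DefectZero

/-!
# The principal block has at most `p ^ (2 a)` characters
-/

set_option autoImplicit false
set_option linter.style.haveILetI false

open scoped ComplexConjugate

namespace Cfsg.Agent.BlocksChar

universe u

variable {G : Type u} [Group G]

/-- The sum of a character over the `p`-regular elements is a rational integer. -/
theorem exists_int_regular_sum [Fintype G] (p : ℕ) {χ : G → ℂ} (hχ : IsCharacter G χ)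
    [DecidablePred fun g : G => ¬ p ∣ orderOf g] :
    ∃ k : ℤ, ∑ g ∈ Finset.univ.filter (fun g : G => ¬ p ∣ orderOf g), χ g = (k : ℂ) := by
  classical
  haveI : NeZero (Nat.card G) := ⟨Nat.card_pos.ne'⟩
  refine GalAvg.exists_int_of_const (n := Nat.card G)
    (x := fun a => ∑ g ∈ Finset.univ.filter (fun g : G => ¬ p ∣ orderOf g),
      χ (g ^ (a : ZMod (Nat.card G)).val)) ?_ fun a => ?_
  · have : (fun a : (ZMod (Nat.card G))ˣ => ∑ g ∈ Finset.univ.filter (fun g : G => ¬ p ∣ orderOf g),
        χ (g ^ (a : ZMod (Nat.card G)).val))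
        = ∑ g ∈ Finset.univ.filter (fun g : G => ¬ p ∣ orderOf g),
          fun a : (ZMod (Nat.card G))ˣ => χ (g ^ (a : ZMod (Nat.card G)).val) := by
      funext a; simp
    rw [this]
    exact Subalgebra.sum_mem _ fun g _ => GalAvg.isCharacter_pow_mem hχ g pow_card_eq_one'
  · refine Finset.sum_equiv (GalAvg.powUnit a) (fun g => ?_) fun g _ => by simp
    simp only [Finset.mem_filter, Finset.mem_univ, true_and, GalAvg.powUnit_apply]
    have hcop : Nat.Coprime (orderOf g) (a : ZMod (Nat.card G)).val :=
      ((ZMod.val_coe_unit_coprime a).symm).coprime_dvd_left (orderOf_dvd_natCard g)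
    rw [hcop.orderOf_pow]

/-- The principal block has at most `|G|_p ^ 2` members. -/
theorem card_principalBlock_le [Finite G] {p : ℕ} [hp : Fact p.Prime] {M : Ideal AlgInt}
    (hM : IsPModular p M) :
    Nat.card (principalBlock M G) ≤ (p ^ (Nat.card G).factorization p) ^ 2 := by
  classical
  letI := Fintype.ofFinite G
  haveI : M.IsPrime := hM.2.1.isPrime
  set n := p ^ (Nat.card G).factorization p with hn
  set m := Nat.card G / n with hm
  have hmn : Nat.card G = m * n := (Nat.div_mul_cancel (Nat.ordProj_dvd _ _)).symm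
  have hpm : ¬ p ∣ m := Nat.not_dvd_ordCompl hp.out Nat.card_pos.ne'
  have hcop : Nat.Coprime m n :=
    Nat.Coprime.pow_right _ ((Nat.Prime.coprime_iff_not_dvd hp.out).mpr hpm).symm
  set R := Finset.univ.filter (fun g : G => ¬ p ∣ orderOf g) with hR
  set θ : G → ℂ := fun x => if IsConj (x ^ CharDeep.sectionExp hcop) 1 then (n : ℂ) else 0 with hθ
  have hθR : ∀ x, θ x = if x ∈ R then (n : ℂ) else 0 := by
    intro x
    refine if_congr ?_ rfl rfl
    rw [isConj_one_left, hR, Finset.mem_filter, and_iff_right (Finset.mem_univ x)]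
    constructor
    · intro h hpx
      obtain ⟨c, hc⟩ := hpx
      have h2 : (x ^ c) ^ CharDeep.sectionExp hcop = 1 := by
        rw [← pow_mul, mul_comm, pow_mul, h, one_pow]
      have ho : orderOf (x ^ c) = p := by
        have hc0 : c ≠ 0 := fun h0 => (orderOf_pos x).ne' (by rw [hc, h0, mul_zero])
        rw [orderOf_pow_of_dvd hc0 (by rw [hc]; exact dvd_mul_left _ _), hc,
          Nat.mul_div_cancel _ (Nat.pos_of_ne_zero hc0)]
      rw [CharDeep.pow_sectionExp_of_dvd_right hcop (by
        rw [ho, hn]
        refine dvd_pow_self p ?_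
        refine (hp.out.factorization_pos_of_dvd Nat.card_pos.ne' ?_).ne'
        exact ho ▸ orderOf_dvd_natCard _)] at h2
      rw [h2, orderOf_one] at ho
      exact hp.out.ne_one ho.symm
    · intro h
      refine CharDeep.pow_sectionExp_of_dvd_left hcop ?_
      refine (Nat.Coprime.dvd_of_dvd_mul_right ?_ (hmn ▸ orderOf_dvd_natCard x))
      exact Nat.Coprime.pow_right _ ((Nat.Prime.coprime_iff_not_dvd hp.out).mpr h).symm
  have hmem := CharDeep.section_indicator_mem hmn hcop (1 : G)
  have hcl := (CharDeep.algSpan_classInner hmem (Char.trivialIrr G)).1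
  -- the coefficients are rational integers, nonzero on the principal block
  have hc : ∀ ψ : IrrCharacter G, ψ ∈ principalBlock M G →
      (1 : ℝ) ≤ Complex.normSq (classInner θ (ψ : G → ℂ)) := by
    intro ψ hψ
    obtain ⟨T, hT⟩ := exists_int_regular_sum p (Char.isCharacter_of_irr ψ.2)
    have he : classInner θ (ψ : G → ℂ) = (n : ℂ) * T / Nat.card G := by
      rw [classInner, ← hR] at *
      rw [← hR] at hT
      have h1 : ∑ g : G, θ g * conj ((ψ : G → ℂ) g) = (n : ℂ) * conj (∑ g ∈ R, (ψ : G → ℂ) g) := by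
        simp only [hθR, ite_mul, zero_mul, Finset.sum_ite_mem, Finset.univ_inter, ← Finset.mul_sum,
          map_sum]
      rw [h1, hT, map_intCast]
      ring
    have hT0 : T ≠ 0 := by
      intro h0
      refine (Brauer.mem_principalBlock_iff_regSum hM ψ).mp hψ ?_
      have hreg := Brauer.finsum_regular_eq_regSum p (ψ : G → ℂ) (fun _ => (1 : ℂ))
      rw [finsum_mem_eq_sum_of_inter_support_eq _ (t := R) (by ext x; simp [hR])] at hreg
      simp only [map_one, mul_one] at hreg
      rw [← hreg, hT, h0, Int.cast_zero, zero_div]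
      exact Block.memLocalIdeal_zero
    have hint := (CharDeep.algSpan_classInner hmem ψ).2
    rw [← hθ, he] at hint
    have hq : IsIntegral ℤ ((n : ℚ) * T / Nat.card G) := by
      refine (isIntegral_algebraMap_iff (RingHom.injective (algebraMap ℚ ℂ))).mp ?_
      simpa using hint
    obtain ⟨k, hk⟩ := (isIntegrallyClosed_iff ℚ).mp inferInstance hq
    have hk' : ((k : ℤ) : ℂ) = (n : ℂ) * T / Nat.card G := by
      have := congrArg (algebraMap ℚ ℂ) hk
      simpa using this
    have hk0 : k ≠ 0 := by
      intro h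
      rw [h, Int.cast_zero, eq_comm, div_eq_zero_iff, mul_eq_zero] at hk'
      rcases hk' with (h1 | h1) | h1
      · exact pow_ne_zero _ hp.out.ne_zero (Nat.cast_eq_zero.mp h1)
      · exact hT0 (Int.cast_eq_zero.mp h1)
      · exact Char.card_ne_zero_complex h1
    rw [he, ← hk', Complex.normSq_intCast]
    have : (1 : ℤ) ≤ k * k := by
      rcases lt_or_gt_of_ne hk0 with h | h <;> nlinarith
    exact_mod_cast this
  have hpar := Char.classInner_eq_sum_mul_conj (b := θ) (show IsClassFunction G θ from hcl)
  have htot : ((∑ ψ : IrrCharacter G, Complex.normSq (classInner θ (ψ : G → ℂ)) : ℝ) : ℂ)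
      = (n : ℂ) ^ 2 * R.card / Nat.card G := by
    push_cast
    rw [Finset.sum_congr rfl fun ψ _ => (Complex.mul_conj _).symm, ← hpar, classInner]
    simp only [hθR, apply_ite conj, Complex.conj_natCast, map_zero, ite_mul, zero_mul,
      mul_ite, mul_zero]
    simp only [← ite_and, and_self, Finset.sum_ite_mem, Finset.univ_inter, Finset.sum_const,
      nsmul_eq_mul]
    ring
  have htot' : ∑ ψ : IrrCharacter G, Complex.normSq (classInner θ (ψ : G → ℂ))
      ≤ ((n ^ 2 : ℕ) : ℝ) := by
    have e : ∑ ψ : IrrCharacter G, Complex.normSq (classInner θ (ψ : G → ℂ))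
        = (n : ℝ) ^ 2 * R.card / Nat.card G := by
      refine Complex.ofReal_inj.mp (htot.trans ?_)
      simp
    rw [e, Nat.cast_pow n 2, div_le_iff₀ (Nat.cast_pos.mpr Nat.card_pos)]
    refine mul_le_mul_of_nonneg_left ?_ (sq_nonneg _)
    rw [Nat.card_eq_fintype_card]
    exact_mod_cast Finset.card_le_univ R
  have hlow : (Nat.card (principalBlock M G) : ℝ)
      ≤ ∑ ψ : IrrCharacter G, Complex.normSq (classInner θ (ψ : G → ℂ)) := by
    rw [Nat.card_eq_fintype_card, ← Set.toFinset_card]
    refine le_trans ?_ (Finset.sum_le_sum_of_subset_of_nonneg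
      (Finset.subset_univ (principalBlock M G).toFinset) fun i _ _ => Complex.normSq_nonneg _)
    refine le_trans ?_ (Finset.sum_le_sum fun ψ hψ => hc ψ (Set.mem_toFinset.mp hψ))
    simp
  exact_mod_cast hlow.trans htot'

end Cfsg.Agent.BlocksChar
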