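import Cfsg.Agent.BlocksChar.PairCorrespondent
import Cfsg.Agent.Brauer.Sections

/-!
# Constancy of characters of a block on `u • V`
-/

set_option autoImplicit false
set_option linter.style.haveILetI false
set_option linter.unusedSectionVars false

namespace Cfsg.Agent.BlocksChar

open Cfsg MonoidAlgebra
open Cfsg.Agent.Block Cfsg.Agent.Brauer

universe u

set_option maxHeartbeats 1000000

variable {G : Type u} [Group G] [Fintype G] {p : ℕ} [Fact p.Prime] {M : Ideal AlgInt} [M.IsPrime]
  [CharP (Block.ResF M) p]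

theorem toF_avgElt (hM : IsPModular p M) {V : Subgroup G} (hV : ¬ p ∣ Nat.card V) :
    toF M (avgElt hM V hV) = avgF M V := by
  refine groupAlgebra_ext fun x => ?_
  rw [coeff_mapR, avgElt, coeff_ofFn]
  by_cases hx : x ∈ V
  · rw [if_pos hx, coeff_avgF_mem hx]
    refine eq_inv_of_mul_eq_one_right ?_
    rw [← map_natCast (red M), ← map_mul]
    have h1 : ((Nat.card V : ℕ) : localRing M) *
        ⟨(Nat.card V : ℂ)⁻¹, memLocalRing_natCast_inv hM hV⟩ = 1 := by
      apply Subtype.ext
      simp only [Subring.coe_mul, Subring.coe_natCast, OneMemClass.coe_one]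
      exact mul_inv_cancel₀ (Nat.cast_ne_zero.2 Nat.card_pos.ne')
    rw [h1, map_one]
  · rw [if_neg hx, map_zero, coeff_avgF_notMem hx]

open scoped Classical in
/-- Constancy of the characters of a block on `u • V`, when `V` is in the kernel of its
Brauer image at `u`. -/
theorem block_apply_mul (hM : IsPModular p M) {B : Set (IrrCharacter G)} (hB : IsPBlock M B)
    {u : G} {k : ℕ} (hu : orderOf u = p ^ k) (V : Subgroup G)
    (hVC : V ≤ Subgroup.centralizer ({u} : Set G))
    (hVn : ∀ c ∈ Subgroup.centralizer ({u} : Set G), ∀ v ∈ V, c * v * c⁻¹ ∈ V)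
    (hV : ¬ p ∣ Nat.card V)
    (hkill : BrauerPairs.trunc (Subgroup.zpowers u) (idemF M B) * avgF M V =
      BrauerPairs.trunc (Subgroup.zpowers u) (idemF M B))
    {χ : IrrCharacter G} (hχ : χ ∈ B) {v : G} (hv : v ∈ V) :
    (χ : G → ℂ) (u * v) = (χ : G → ℂ) u := by
  set C := Subgroup.centralizer ({u} : Set G) with hC
  let A : MonoidAlgebra (localRing M) G := avgElt hM V hV
  have hAfix : ∀ c ∈ C, ∀ x : G, A.coeff (c * x * c⁻¹) = A.coeff x := by
    intro c hc x
    simp only [A, avgElt, coeff_ofFn]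
    refine if_congr ⟨fun h => ?_, fun h => hVn c hc x h⟩ rfl rfl
    simpa [mul_assoc] using hVn c⁻¹ (C.inv_mem hc) _ h
  let e := idemS M B
  have he := idemS_isCentralElt (M := M) B
  let f : MonoidAlgebra (localRing M) G := e * (1 - A)
  have hAA : A * A = A := avgElt_mul_self hM V hV
  have hf : f * f = f := by
    have h1 : (1 - A) * (1 - A) = 1 - A := by rw [mul_sub, sub_mul, sub_mul, hAA]; simp
    calc f * f = e * ((1 - A) * e) * (1 - A) := by simp only [f, mul_assoc]
      _ = (e * e) * ((1 - A) * (1 - A)) := by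
        rw [← (isCentralElt_commute he (1 - A) : e * (1 - A) = (1 - A) * e)]
        simp only [mul_assoc]
        rfl
      _ = f := by rw [idemS_mul_self hB, h1]
  have hIA : ∀ c ∈ C, ∀ x : G,
      (1 - A : MonoidAlgebra (localRing M) G).coeff (c * x * c⁻¹)
        = (1 - A : MonoidAlgebra (localRing M) G).coeff x := by
    intro c hc x
    rw [coeff_sub, Finsupp.sub_apply, Finsupp.sub_apply, hAfix c hc, IsCentralElt.one x c]
  have hmulfix : ∀ (a b : MonoidAlgebra (localRing M) G) (c : G),
      (∀ x, a.coeff (c * x * c⁻¹) = a.coeff x) → (∀ x, b.coeff (c * x * c⁻¹) = b.coeff x) →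
      ∀ x, (a * b).coeff (c * x * c⁻¹) = (a * b).coeff x := by
    intro a b c ha hb x
    rw [Block.coeff_mul_sum, Block.coeff_mul_sum]
    refine (Fintype.sum_equiv (MulAut.conj c).toEquiv _ _ fun y => ?_).symm
    show _ = (a.coeff (c * y * c⁻¹)) * (b.coeff ((c * y * c⁻¹)⁻¹ * (c * x * c⁻¹)))
    rw [ha, show (c * y * c⁻¹)⁻¹ * (c * x * c⁻¹) = c * (y⁻¹ * x) * c⁻¹ by group, hb]
  have hffix : ∀ c ∈ C, ∀ x : G, f.coeff (c * x * c⁻¹) = f.coeff x :=
    fun c hc => hmulfix e (1 - A) c (fun x => he x c) (hIA c hc)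
  -- `f` vanishes on `C` modulo `M`
  have hzero : ∀ x ∈ C, red M (f.coeff x) = 0 := by
    have hCP : Subgroup.centralizer (Subgroup.zpowers u : Set G) = C := centralizer_zpowers_eq u
    have hP : IsPGroup p (Subgroup.zpowers u) :=
      IsPGroup.of_card (n := k) (by rw [Nat.card_zpowers, hu])
    have hCN : C ≤ Subgroup.normalizer (V : Set G) := fun c hc => by
      rw [Subgroup.mem_normalizer_iff]
      exact fun y => ⟨hVn c hc y, fun h => by
        simpa [mul_assoc] using hVn c⁻¹ (C.inv_mem hc) _ h⟩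
    have hQC : Subgroup.zpowers u ≤ C := by
      rw [Subgroup.zpowers_le, hC, Subgroup.mem_centralizer_singleton_iff]
    have hfix1 : BrauerPairs.Fixed (Subgroup.zpowers u) (idemF M B) :=
      fun h _ g => idemF_isCentralElt B g h
    have hfix2 : BrauerPairs.Fixed (Subgroup.zpowers u)
        (1 - avgF M V : MonoidAlgebra (ResF M) G) := by
      have := fixed_avgF (M := M) (hQC.trans hCN)
      intro h hh g
      rw [coeff_sub, Finsupp.sub_apply, Finsupp.sub_apply, this h hh g, IsCentralElt.one g h]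
    have h0 : BrauerPairs.trunc (Subgroup.zpowers u) (toF M f) = 0 := by
      rw [show toF M f = idemF M B * (1 - avgF M V) by
        simp only [f, e, A, map_mul, map_sub, map_one, toF_avgElt, idemF],
        BrauerPairs.trunc_mul hP hfix1 hfix2, map_sub, BrauerPairs.trunc_one,
        trunc_avgF hP hV (hQC.trans hCN), hCP, inf_eq_left.2 hVC, mul_sub, mul_one, hkill,
        sub_self]
    intro x hx
    have h := congrArg (fun w => MonoidAlgebra.coeff w x) h0
    rw [BrauerPairs.coeff_trunc_mem _ (hCP.symm ▸ hx), coeff_mapR] at h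
    simpa using h
  -- evaluate
  have hcomm : ∀ n ∈ V, Commute u n := fun n hn =>
    (Subgroup.mem_centralizer_singleton_iff.mp (hVC hn)).symm
  have hval : ∀ n ∈ V, (χ : G → ℂ) (u * n) = (Nat.card V : ℂ)⁻¹ *
      ∑ y ∈ Finset.univ.filter (· ∈ V), (χ : G → ℂ) (u * y) := by
    intro n hn
    have hpow : u ∈ Subgroup.zpowers (u * n) := by
      have hn1 : n ^ Nat.card V = 1 := congrArg Subtype.val (pow_card_eq_one' (x := (⟨n, hn⟩ : V)))
      have hcop : (orderOf u).Coprime (Nat.card V) := by
        rw [hu]; exact (hM.1.coprime_iff_not_dvd.mpr hV).pow_left k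
      obtain ⟨s, hs⟩ := exists_pow_eq_self_of_coprime hcop.symm
      refine ⟨(Nat.card V * s : ℕ), ?_⟩
      simp only [zpow_natCast]
      rw [(hcomm n hn).mul_pow, pow_mul n, hn1, one_pow, mul_one, pow_mul, hs]
    have hC' : u * n ∈ C := C.mul_mem (Subgroup.mem_centralizer_singleton_iff.mpr rfl) (hVC hn)
    have h0 := charLin_single_mul_eq_zero hM f hf (u * n) u hu hpow (hffix _ hC') hzero
      (χ : G → ℂ) (Char.irr_isClassFunction χ.2)
    rw [show single (u * n) 1 * toC M f = blockIdem B * (single (u * n) 1 * (1 - toC M A)) by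
      rw [show toC M f = blockIdem B * (1 - toC M A) by
        simp only [f, e, map_mul, map_sub, map_one, toC_idemS hB],
        ← mul_assoc, ← (isCentralElt_commute (blockIdem_isCentralElt B) (single (u * n) 1) : _ = _),
        mul_assoc], charLin_central_mul χ.2 (blockIdem_isCentralElt B), omega_blockIdem,
      if_pos hχ, one_mul, mul_sub, mul_one, map_sub, charLin_single, one_mul, sub_eq_zero] at h0
    rw [h0, charLin_eq_sum, Finset.mul_sum]
    have hcoef : ∀ z, (single (u * n) 1 * toC M A).coeff z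
        = if (u * n)⁻¹ * z ∈ V then (Nat.card V : ℂ)⁻¹ else 0 := by
      intro z
      rw [Block.coeff_mul_sum, Finset.sum_eq_single (u * n)]
      · simp only [coeff_single, Finsupp.single_eq_same, one_mul, coeff_mapR]
        simp only [A, avgElt, coeff_ofFn]
        split_ifs <;> rfl
      · intro b _ hb
        simp [coeff_single, Finsupp.single_apply, Ne.symm hb]
      · simp
    simp only [hcoef, ite_mul, zero_mul]
    rw [← Finset.sum_filter]
    refine (Finset.sum_equiv (Equiv.mulLeft u) (fun y => ?_) (fun y _ => rfl)).symm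
    simp only [Finset.mem_filter, Finset.mem_univ, true_and, Equiv.coe_mulLeft]
    rw [show (u * n)⁻¹ * (u * y) = n⁻¹ * y by group]
    exact (V.mul_mem_cancel_left (V.inv_mem hn)).symm
  calc (χ : G → ℂ) (u * v) = (χ : G → ℂ) (u * 1) := by rw [hval v hv, hval 1 V.one_mem]
    _ = _ := by rw [mul_one]

end Cfsg.Agent.BlocksChar
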